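import Cfsg.Agent.LW.Sharp
import Cfsg.Agent.S0743

/-!
In a `k`-transitive group, `4 ≤ k`, some `(k + 1)`-set induces the alternating group.
-/

set_option autoImplicit false
set_option linter.unusedSectionVars false
set_option linter.style.haveILetI false
set_option linter.deprecated false

namespace CfsgLib.LW

open Equiv Finset

universe u

variable {α : Type u} [Fintype α] [DecidableEq α] {G : Subgroup (Perm α)} {k : ℕ}

/-- The group induced on a subset. -/
def imgOn (N : Subgroup (Perm α)) (F : Finset α) : Subgroup (Perm F) where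
  carrier := {σ | ∃ g ∈ N, ∀ x : F, g x = σ x}
  one_mem' := ⟨1, N.one_mem, fun _ => rfl⟩
  mul_mem' := by
    rintro a b ⟨g, hg, hgx⟩ ⟨h, hh, hhx⟩
    exact ⟨g * h, N.mul_mem hg hh, fun x => by
      rw [Perm.mul_apply, hhx, hgx, Perm.mul_apply]⟩
  inv_mem' := by
    rintro a ⟨g, hg, hgx⟩
    refine ⟨g⁻¹, N.inv_mem hg, fun x => ?_⟩
    rw [Perm.inv_eq_iff_eq, hgx]
    simp

theorem altInd_of_imgOn {N : Subgroup (Perm α)} (hN : N ≤ G) {F : Finset α} {Δ : Finset F}
    (h : AltInd (imgOn N F) Δ) : AltInd G (Δ.map (Function.Embedding.subtype _)) := by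
  intro σ hσ hs
  set Δ' := Δ.map (Function.Embedding.subtype _) with hΔ'
  have hsub : ∀ x ∈ Δ', x ∈ F := by
    intro x hx
    obtain ⟨y, -, rfl⟩ := mem_map.mp hx
    exact y.2
  have hout : ∀ x, σ x ≠ x → x ∈ Δ' := fun x hx => by_contra fun h => hx (hσ x h)
  have hiff : ∀ x, σ x ∈ F ↔ x ∈ F := by
    intro x
    by_cases hx : σ x = x
    · rw [hx]
    · have h1 : σ (σ x) ≠ σ x := fun h => hx (σ.injective h)
      exact iff_of_true (hsub _ (hout _ h1)) (hsub _ (hout _ hx))
  obtain ⟨τ, ⟨g, hg, hgx⟩, hτ⟩ := h (σ.subtypePerm (p := (· ∈ F)) hiff) (fun x hx => Subtype.ext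
    (hσ x (by
      rw [hΔ', mem_map]
      rintro ⟨y, hy, he⟩
      exact hx (by rwa [← (Subtype.ext he : y = x)]))))
    (by convert (Perm.sign_subtypePerm σ hiff (fun x hx => hsub x (hout x hx))).trans hs)
  refine ⟨g, hN hg, fun x hx => ?_⟩
  obtain ⟨y, hy, rfl⟩ := mem_map.mp hx
  show g (y : α) = σ y
  rw [hgx, hτ y hy]
  rfl

/-- The common fixed points of a subgroup. -/
noncomputable def sfx (P : Subgroup (Perm α)) : Finset α :=
  @Finset.filter _ (fun x => ∀ g ∈ P, g x = x) (Classical.decPred _) univ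

theorem mem_sfx {P : Subgroup (Perm α)} {x : α} : x ∈ sfx P ↔ ∀ g ∈ P, g x = x := by
  simp [sfx]

/-- The elements of `G` normalising `P`. -/
def nz (G P : Subgroup (Perm α)) : Subgroup (Perm α) := G ⊓ Subgroup.normalizer (P : Set (Perm α))

theorem nz_maps {P : Subgroup (Perm α)} {g : Perm α} (hg : g ∈ nz G P) {x : α} (hx : x ∈ sfx P) :
    g x ∈ sfx P := by
  rw [mem_sfx] at hx ⊢
  intro p hp
  have h2 := (Subgroup.mem_normalizer_iff''.mp (Subgroup.mem_inf.mp hg).2 p).mp hp
  have h3 := hx _ h2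
  have h4 := congrArg g h3
  simpa [mul_assoc] using h4

/-- Witt's lemma. -/
theorem witt (hk : k ≤ Fintype.card α) (hG : MT G k) (P : Subgroup (Perm α)) (hPG : P ≤ G)
    (hcard : k ≤ (sfx P).card)
    (hconj : ∀ T ⊆ sfx P, T.card = k → ∀ g ∈ G, P.map (MulAut.conj g).toMonoidHom ≤ fixer G T →
      ∃ x ∈ fixer G T, P.map (MulAut.conj (x * g)).toMonoidHom = P) :
    MT (imgOn (nz G P) (sfx P)) k := by
  set F := sfx P
  intro s h hs hinj
  obtain ⟨S, hsS, hS⟩ := exists_superset_card_eq (s := s) hs (by simpa using hcard)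
  obtain ⟨e, he⟩ := Set.MapsTo.exists_equiv_extend_of_card_eq (α := F) (β := F) (t := univ)
    (by simp) (f := h) (s := (s : Set F)) (fun x _ => by simp) hinj
  obtain ⟨f, hf⟩ : ∃ f : α → α, ∀ y : F, f y = ((e y : F) : α) := by
    refine ⟨fun a => if ha : a ∈ F then ((e ⟨a, ha⟩ : F) : α) else a, fun y => by simp [y.2]⟩
  have hfinj : Set.InjOn f ↑(S.map (Function.Embedding.subtype _)) := by
    intro a ha b hb hab
    obtain ⟨a', -, rfl⟩ := mem_map.mp ha
    obtain ⟨b', -, rfl⟩ := mem_map.mp hb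
    simp only [Function.Embedding.subtype_apply] at hab ⊢
    rw [hf, hf] at hab
    exact congrArg Subtype.val (e.injective (Subtype.ext (Subtype.ext hab)))
  obtain ⟨g, hg, hgx⟩ := hG (S.map (Function.Embedding.subtype _)) f (by rw [card_map, hS]) hfinj
  set T := (S.map (Function.Embedding.subtype _)).image g with hT
  have hTF : T ⊆ F := by
    intro b hb
    obtain ⟨a, ha, rfl⟩ := mem_image.mp hb
    obtain ⟨a', -, rfl⟩ := mem_map.mp ha
    rw [hgx _ ha]
    simp only [Function.Embedding.subtype_apply, hf]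
    exact ((e a' : F)).2
  have hPT : P.map (MulAut.conj g).toMonoidHom ≤ fixer G T := by
    rintro _ ⟨p, hp, rfl⟩
    refine ⟨G.mul_mem (G.mul_mem hg (hPG hp)) (G.inv_mem hg), fun b hb => ?_⟩
    obtain ⟨a, ha, rfl⟩ := mem_image.mp hb
    obtain ⟨a', -, rfl⟩ := mem_map.mp ha
    simp [MulAut.conj_apply, mem_sfx.mp a'.2 p hp]
  obtain ⟨x, hx, hxP⟩ := hconj T hTF (by rw [hT, card_image_of_injective _ g.injective, card_map, hS]) g hg hPT
  have hN : x * g ∈ nz G P := by
    refine Subgroup.mem_inf.mpr ⟨G.mul_mem hx.1 hg, ?_⟩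
    rw [Subgroup.mem_normalizer_iff]
    intro y
    constructor
    · intro hy
      exact hxP.le ⟨y, hy, rfl⟩
    · intro hy
      obtain ⟨z, hz, hzy⟩ := hxP.ge hy
      have : z = y := (MulAut.conj (x * g)).injective hzy
      exact this ▸ hz
  have hiff : ∀ a, (x * g) a ∈ F ↔ a ∈ F := by
    intro a
    refine ⟨fun ha => ?_, nz_maps hN⟩
    simpa using nz_maps (Subgroup.inv_mem _ hN) ha
  refine ⟨(x * g).subtypePerm (p := (· ∈ F)) hiff, ⟨x * g, hN, fun _ => rfl⟩, fun y hy => ?_⟩
  apply Subtype.ext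
  show x (g y) = _
  have hy' : (y : α) ∈ S.map (Function.Embedding.subtype _) := mem_map_of_mem _ (hsS hy)
  rw [hgx _ hy', hf]
  have hmem : ((e y : F) : α) ∈ T := by
    rw [hT, mem_image]
    exact ⟨(y : α), hy', by rw [hgx _ hy', hf]⟩
  rw [hx.2 _ hmem]
  exact congrArg (fun q => ((q : F) : α)) (he y hy)

/-- A relation on pairs closed under passing to disjoint pairs holds everywhere. -/
theorem swap_all (B : Finset α) (hB : 5 ≤ B.card) (Sw : α → α → Prop)
    (step : ∀ a b c d, a ∈ B → b ∈ B → c ∈ B → d ∈ B → a ≠ b → c ≠ d → a ≠ c → a ≠ d → b ≠ c → b ≠ d →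
      Sw a b → Sw c d)
    {a b : α} (ha : a ∈ B) (hb : b ∈ B) (hab : a ≠ b) (h : Sw a b) :
    ∀ c ∈ B, ∀ d ∈ B, c ≠ d → Sw c d := by
  intro c hc d hd hcd
  by_cases hdis : a ≠ c ∧ a ≠ d ∧ b ≠ c ∧ b ≠ d
  · exact step a b c d ha hb hc hd hab hcd hdis.1 hdis.2.1 hdis.2.2.1 hdis.2.2.2 h
  have h3 : ({a, b, c, d} : Finset α).card ≤ 3 := by
    push Not at hdis
    have hsub : ∀ p q r : α, ({a, b, c, d} : Finset α) ⊆ {p, q, r} → ({a, b, c, d} : Finset α).card ≤ 3 :=
      fun p q r h => (card_le_card h).trans (card_le_three)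
    by_cases h1 : a = c
    · exact hsub a b d (by subst h1; intro z; simp <;> tauto)
    by_cases h2 : a = d
    · exact hsub a b c (by subst h2; intro z; simp <;> tauto)
    by_cases h4 : b = c
    · exact hsub a b d (by subst h4; intro z; simp <;> tauto)
    · exact hsub a b c (by have := hdis h1 h2 h4; subst this; intro z; simp <;> tauto)
  obtain ⟨e, he, f, hf, hef⟩ := one_lt_card.mp (show 1 < (B \ {a, b, c, d}).card by
    have := le_card_sdiff ({a, b, c, d} : Finset α) B; omega)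
  simp only [mem_sdiff, mem_insert, mem_singleton, not_or] at he hf
  obtain ⟨he, he1, he2, he3, he4⟩ := he
  obtain ⟨hf, hf1, hf2, hf3, hf4⟩ := hf
  exact step e f c d he hf hc hd hef hcd he3 he4 hf3 hf4
    (step a b e f ha hb he hf hab hef (Ne.symm he1) (Ne.symm hf1) (Ne.symm he2) (Ne.symm hf2) h)

/-- An involution interchanging `a`, `b` and fixing exactly the rest of `B`. -/
def Sw (G : Subgroup (Perm α)) (B : Finset α) (a b : α) : Prop :=
  ∃ t ∈ G, t * t = 1 ∧ t a = b ∧ fx t = B \ {a, b}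

theorem altInd_of_sw {B : Finset α} (h : ∀ c ∈ B, ∀ d ∈ B, c ≠ d → Sw G B c d) {Δ : Finset α}
    (hΔ : Δ ⊆ B) : AltInd G Δ := by
  have hs : SymInd G Δ := by
    refine symInd_of_swaps fun a ha b hb hab => ?_
    obtain ⟨t, ht, ht2, hta, htf⟩ := h a (hΔ ha) b (hΔ hb) hab
    refine ⟨t, ht, fun x hx => ?_⟩
    rcases eq_or_ne x a with e | e
    · rw [e, swap_apply_left, hta]
    rcases eq_or_ne x b with e' | e'
    · rw [e', swap_apply_right, ← hta, apply_self ht2]
    rw [swap_apply_of_ne_of_ne e e', ← mem_fx, htf]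
    simp [hΔ hx, e, e']
  exact fun σ hσ _ => hs σ hσ

theorem card_fixer_const (hG : MT G k) {s t : Finset α} (hs : s.card = k) (ht : t.card = k) :
    ∃ g ∈ G, s.image g = t := by
  obtain ⟨e⟩ := Finset.equivOfCardEq (hs.trans ht.symm) |> fun e => (⟨e⟩ : Nonempty (s ≃ t))
  obtain ⟨g, hg, hgx⟩ := hG s (fun a => if ha : a ∈ s then ((e ⟨a, ha⟩ : t) : α) else a) hs.le (by
    intro a ha b hb hab
    simp only [mem_coe] at ha hb
    simp only [dif_pos ha, dif_pos hb] at hab
    exact congrArg Subtype.val (e.injective (Subtype.ext hab)))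
  refine ⟨g, hg, eq_of_subset_of_card_le ?_ (by rw [card_image_of_injective _ g.injective]; omega)⟩
  intro y hy
  obtain ⟨x, hx, rfl⟩ := mem_image.mp hy
  rw [hgx x hx, dif_pos hx]
  exact ((e ⟨x, hx⟩ : t)).2

theorem sw_case_even (hk : 4 ≤ k) (hG : MT G k)
    (hle : ∀ g ∈ G, g * g = 1 → g ≠ 1 → (fx g).card ≤ k)
    {z : Perm α} (hz : z ∈ G) (hz2 : z * z = 1) (hz1 : z ≠ 1) (hzc : (fx z).card = k) :
    ∃ Δ : Finset α, Δ.card = k + 1 ∧ AltInd G Δ := by
  classical
  obtain ⟨a, ha⟩ : ∃ a, z a ≠ a := by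
    by_contra h; push Not at h; exact hz1 (Equiv.ext h)
  set B := insert a (insert (z a) (fx z)) with hB
  have han : a ∉ fx z := fun h => ha (mem_fx.mp h)
  have hbn : z a ∉ fx z := fun h => ha (z.injective (mem_fx.mp h))
  have hBc : B.card = k + 2 := by
    rw [hB, card_insert_of_notMem (by simp [han, Ne.symm ha]), card_insert_of_notMem hbn]; omega
  have hall := swap_all B (by omega) (Sw G B) ?_ (a := a) (b := z a) (by simp [hB]) (by simp [hB])
    (Ne.symm ha) ⟨z, hz, hz2, rfl, by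
      ext w
      simp only [hB, mem_sdiff, mem_insert, mem_singleton]
      constructor
      · exact fun h => ⟨Or.inr (Or.inr h), fun h' => h'.elim (fun e => han (e ▸ h)) fun e => hbn (e ▸ h)⟩
      · tauto⟩
  · obtain ⟨Δ, hΔ, hc⟩ := exists_subset_card_eq (s := B) (n := k + 1) (by omega)
    exact ⟨Δ, hc, altInd_of_sw hall hΔ⟩
  intro a b c d ha hb hc hd hab hcd hac had hbc hbd
  rintro ⟨t, ht, ht2, hta, htf⟩
  set S := B \ {c, d} with hS
  have hSc : S.card = k := by
    rw [hS, card_sdiff_of_subset (by simp [insert_subset_iff, hc, hd]), card_pair hcd]; omega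
  have htS : S.image t = S := by
    refine eq_of_subset_of_card_le ?_ (by rw [card_image_of_injective _ t.injective])
    intro w hw
    obtain ⟨v, hv, rfl⟩ := mem_image.mp hw
    simp only [hS, mem_sdiff, mem_insert, mem_singleton, not_or] at hv ⊢
    rcases eq_or_ne v a with rfl | e
    · rw [hta]; exact ⟨hb, hbc, hbd⟩
    rcases eq_or_ne v b with rfl | e'
    · rw [← hta, apply_self ht2]; exact ⟨ha, hac, had⟩
    have : t v = v := mem_fx.mp (htf ▸ by simp [hv.1, e, e'])
    rw [this]; exact hv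
  have hti : t⁻¹ = t := inv_eq_of_mul_eq_one_left ht2
  have heven : Even (Nat.card (fixer G S)) := by
    obtain ⟨g, hg, hgi⟩ := card_fixer_const hG hzc hSc
    rw [← card_fixer_eq hg hgi, even_iff_two_dvd]
    have h := Subgroup.orderOf_dvd_natCard (fixer G (fx z))
      (show z ∈ fixer G (fx z) from ⟨hz, fun w hw => mem_fx.mp hw⟩)
    rwa [orderOf_eq_prime (by rw [pow_two]; exact hz2) hz1] at h
  obtain ⟨u, hu, hufix⟩ := exists_fixed_of_odd _ (fun g => t * g * t) (card_inv_odd heven)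
    (fun g hg => by
      simp only [mem_filter, mem_univ, true_and] at hg ⊢
      refine ⟨?_, ?_, fun h => hg.2.2 ?_⟩
      · have := (fixer_conj ht htS).mpr hg.1
        rwa [hti] at this
      · simp only [mul_assoc]
        rw [← mul_assoc t t, ht2, one_mul, ← mul_assoc g g, hg.2.1, one_mul, ht2]
      · calc g = (t * t) * g * (t * t) := by rw [ht2, one_mul, mul_one]
          _ = t * (t * g * t) * t := by simp only [mul_assoc]
          _ = 1 := by rw [h, mul_one, ht2])
    (fun g _ => by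
      simp only [mul_assoc]
      rw [ht2, mul_one, ← mul_assoc t t, ht2, one_mul])
  simp only [mem_filter, mem_univ, true_and] at hu
  have hufx : fx u = S := (eq_of_subset_of_card_le (fun w hw => mem_fx.mpr (hu.1.2 w hw))
    ((hle u hu.1.1 hu.2.1 hu.2.2).trans hSc.ge)).symm
  have hcomm : t * u = u * t := by
    calc t * u = t * (t * u * t) := by rw [hufix]
      _ = u * t := by simp only [mul_assoc]; rw [← mul_assoc t t, ht2, one_mul]
  refine ⟨u, hu.1.1, hu.2.1, ?_, hufx⟩
  have h1 : u c ∈ fx t := fx_of_commute hcomm (by rw [htf]; simp [hc, hac.symm, hbc.symm])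
  rw [htf] at h1
  have h2 : u c ∉ S := fun h => by
    have h' : u (u c) = u c := mem_fx.mp (hufx ▸ h)
    rw [u.injective h'] at h
    simp [hS] at h
  have h3 : u c ≠ c := fun h => by
    have h' : c ∈ fx u := mem_fx.mpr h
    rw [hufx] at h'
    simp [hS] at h'
  simp only [hS, mem_sdiff, mem_insert, mem_singleton, not_and, not_not] at h1 h2
  exact (h2 h1.1).resolve_left h3

theorem sw_case_odd (hk : 4 ≤ k) (hG : MT G k)
    (hlt : ∀ g ∈ G, g * g = 1 → g ≠ 1 → (fx g).card < k)
    {z : Perm α} (hz : z ∈ G) (hz2 : z * z = 1) (hz1 : z ≠ 1) (hzc : (fx z).card + 1 = k) :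
    ∃ Δ : Finset α, Δ.card = k + 1 ∧ AltInd G Δ := by
  classical
  obtain ⟨a, ha⟩ : ∃ a, z a ≠ a := by
    by_contra h; push Not at h; exact hz1 (Equiv.ext h)
  set B := insert a (insert (z a) (fx z)) with hB
  have han : a ∉ fx z := fun h => ha (mem_fx.mp h)
  have hbn : z a ∉ fx z := fun h => ha (z.injective (mem_fx.mp h))
  have hBc : B.card = k + 1 := by
    rw [hB, card_insert_of_notMem (by simp [han, Ne.symm ha]), card_insert_of_notMem hbn]; omega
  have hno : ∀ {D : Finset α}, D.card = k → NoInv G D := by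
    intro D hD g hg h2
    by_contra h1
    have := hlt g hg.1 h2 h1
    have h3 : D.card ≤ (fx g).card := card_le_card fun x hx => mem_fx.mpr (hg.2 x hx)
    omega
  have hall := swap_all B (by omega) (Sw G B) ?_ (a := a) (b := z a) (by simp [hB]) (by simp [hB])
    (Ne.symm ha) ⟨z, hz, hz2, rfl, by
      ext w
      simp only [hB, mem_sdiff, mem_insert, mem_singleton]
      constructor
      · exact fun h => ⟨Or.inr (Or.inr h), fun h' => h'.elim (fun e => han (e ▸ h)) fun e => hbn (e ▸ h)⟩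
      · tauto⟩
  · exact ⟨B, hBc, altInd_of_sw hall subset_rfl⟩
  intro a b c d ha hb hc hd hab hcd hac had hbc hbd
  rintro ⟨t, ht, ht2, hta, htf⟩
  obtain ⟨e, he⟩ := card_pos.mp (show 0 < (B \ {a, b, c, d}).card by
    have := le_card_sdiff ({a, b, c, d} : Finset α) B
    have : ({a, b, c, d} : Finset α).card ≤ 4 := card_le_four
    omega)
  simp only [mem_sdiff, mem_insert, mem_singleton, not_or] at he
  obtain ⟨heB, hea, heb, hec, hed⟩ := he
  set D := B.erase e with hD
  have hDc : D.card = k := by rw [hD, card_erase_of_mem heB]; omega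
  have htfix : ∀ w ∈ B, w ≠ a → w ≠ b → t w = w := fun w hw h1 h2 =>
    mem_fx.mp (htf ▸ by simp [hw, h1, h2])
  have hsw : ∀ w ∈ D, swap c d w ∈ D := by
    intro w hw
    rcases eq_or_ne w c with rfl | e1
    · rw [swap_apply_left]; exact mem_erase.mpr ⟨Ne.symm hed, hd⟩
    rcases eq_or_ne w d with rfl | e2
    · rw [swap_apply_right]; exact mem_erase.mpr ⟨Ne.symm hec, hc⟩
    rwa [swap_apply_of_ne_of_ne e1 e2]
  have hcD : c ∈ D := mem_erase.mpr ⟨Ne.symm hec, hc⟩
  obtain ⟨g, hg, hgx⟩ := hG D (swap c d) hDc.le (Equiv.injective _).injOn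
  obtain ⟨u₀, hu₀, hu₀2, -, hu₀x⟩ := lift_inv (hno hDc) hg (fun w hw => by
    rw [hgx w hw, hgx _ (hsw w hw), swap_apply_self]) hcD
    (by rw [hgx c hcD, swap_apply_left]; exact hcd.symm)
  have htD : ∀ w ∈ D, t w ∈ D := by
    intro w hw
    obtain ⟨hwe, hwB⟩ := mem_erase.mp hw
    rcases eq_or_ne w a with rfl | e1
    · rw [hta]; exact mem_erase.mpr ⟨Ne.symm heb, hb⟩
    rcases eq_or_ne w b with rfl | e2
    · rw [← hta, apply_self ht2]; exact mem_erase.mpr ⟨Ne.symm hea, ha⟩
    rw [htfix w hwB e1 e2]; exact hw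
  have hu₀s : ∀ w ∈ D, u₀ w = swap c d w := fun w hw => (hu₀x w hw).trans (hgx w hw)
  have htb : t b = a := by rw [← hta, apply_self ht2]
  obtain ⟨u, hu, hu2, hcomm, hux⟩ := lift_commute (hno hDc) ht hu₀ ht2 hu₀2 (fun w hw => by
    rw [hu₀s w hw, hu₀s _ (htD w hw)]
    obtain ⟨hwe, hwB⟩ := mem_erase.mp hw
    rcases eq_or_ne w a with rfl | e1
    · rw [swap_apply_of_ne_of_ne hac had, hta, swap_apply_of_ne_of_ne hbc hbd]
    rcases eq_or_ne w b with rfl | e2
    · rw [swap_apply_of_ne_of_ne hbc hbd, htb, swap_apply_of_ne_of_ne hac had]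
    rw [htfix w hwB e1 e2]
    rcases eq_or_ne w c with rfl | e3
    · rw [swap_apply_left]; exact htfix d hd had.symm hbd.symm
    rcases eq_or_ne w d with rfl | e4
    · rw [swap_apply_right]; exact htfix c hc hac.symm hbc.symm
    rw [swap_apply_of_ne_of_ne e3 e4]; exact htfix w hwB e1 e2)
  have hus : ∀ w ∈ D, u w = swap c d w := fun w hw => (hux w hw).trans (hu₀s w hw)
  have huc : u c = d := by rw [hus c hcD, swap_apply_left]
  have hue : u e = e := by
    have h1 : u e ∈ fx t := fx_of_commute hcomm (mem_fx.mpr (htfix e heB hea heb))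
    rw [htf] at h1
    simp only [mem_sdiff, mem_insert, mem_singleton, not_or] at h1
    by_contra hne
    have hm : u e ∈ D := mem_erase.mpr ⟨hne, h1.1⟩
    have h2 : u (u e) = swap c d (u e) := hus _ hm
    rw [apply_self hu2] at h2
    have h3 := hsw _ hm
    rw [← h2] at h3
    exact (mem_erase.mp h3).1 rfl
  have hufix : ∀ w ∈ B, w ≠ c → w ≠ d → u w = w := by
    intro w hw h1 h2
    rcases eq_or_ne w e with rfl | h
    · exact hue
    rw [hus w (mem_erase.mpr ⟨h, hw⟩), swap_apply_of_ne_of_ne h1 h2]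
  have hu1 : u ≠ 1 := fun h => hcd (by rw [h, Perm.one_apply] at huc; exact huc)
  refine ⟨u, hu, hu2, huc, (eq_of_subset_of_card_le (fun w hw => ?_) ?_).symm⟩
  · simp only [mem_sdiff, mem_insert, mem_singleton, not_or] at hw
    exact mem_fx.mpr (hufix w hw.1 hw.2.1 hw.2.2)
  · rw [card_sdiff_of_subset (by simp [insert_subset_iff, hc, hd]), card_pair hcd]
    have := hlt u hu hu2 hu1
    omega

theorem sfx_zpowers_ge (t : Perm α) : fx t ⊆ sfx (Subgroup.zpowers t) := by
  intro x hx
  rw [mem_sfx]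
  rintro g ⟨n, rfl⟩
  exact Perm.zpow_apply_eq_self_of_apply_eq_self (mem_fx.mp hx) n

/-- In a `k`-transitive group some `(k+1)`-set induces the alternating group. -/
theorem exists_altInd (hk : 4 ≤ k) (hkn : k < Fintype.card α) (hG : MT G k) :
    ∃ Δ : Finset α, Δ.card = k + 1 ∧ AltInd G Δ := by
  classical
  induction hn : Fintype.card α using Nat.strong_induction_on generalizing α with
  | _ n ih =>
  subst hn
  have descend : ∀ P : Subgroup (Perm α), P ≠ ⊥ → k < (sfx P).card →
      MT (imgOn (nz G P) (sfx P)) k → ∃ Δ : Finset α, Δ.card = k + 1 ∧ AltInd G Δ := by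
    intro P hP hc hMT
    have hlt : Fintype.card ↥(sfx P) < Fintype.card α := by
      rw [Fintype.card_coe]
      refine (card_lt_iff_ne_univ _).mpr fun h => hP ?_
      rw [Subgroup.eq_bot_iff_forall]
      intro g hg
      exact Equiv.ext fun x => mem_sfx.mp (h ▸ mem_univ x) g hg
    obtain ⟨Δ, hΔ, hA⟩ := ih _ hlt (α := ↥(sfx P)) (by rwa [Fintype.card_coe]) hMT rfl
    exact ⟨Δ.map (Function.Embedding.subtype _), by rw [card_map, hΔ], altInd_of_imgOn inf_le_left hA⟩
  by_cases h0 : ∃ t ∈ G, t * t = 1 ∧ t ≠ 1 ∧ k < (fx t).card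
  · obtain ⟨t, ht, ht2, ht1, htc⟩ := h0
    haveI := Fact.mk Nat.prime_two
    set Rs : Set (Subgroup (Perm α)) := {R | R ≤ G ∧ IsPGroup 2 R ∧ R ≠ ⊥ ∧ k < (sfx R).card}
    have hRne : Subgroup.zpowers t ∈ Rs := by
      refine ⟨Subgroup.zpowers_le.mpr ht, IsPGroup.of_card (n := 1) ?_, by simpa using ht1,
        htc.trans_le (card_le_card (sfx_zpowers_ge t))⟩
      rw [Nat.card_zpowers, orderOf_eq_prime (by rw [pow_two]; exact ht2) ht1, pow_one]
    obtain ⟨R, ⟨hRG, hR2, hR1, hRc⟩, hRmax⟩ := (Set.toFinite Rs).exists_maximal ⟨_, hRne⟩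
    by_cases hS : ∃ S ⊆ sfx R, S.card = k ∧
        Nat.card R = 2 ^ (Nat.card (fixer G S)).factorization 2
    · obtain ⟨S, hSR, hSc, hcard⟩ := hS
      refine descend R hR1 hRc (witt hkn.le hG R hRG hRc.le fun T hT hTc g hg hgT => ?_)
      have hRT : R ≤ fixer G T := fun r hr => ⟨hRG hr, fun w hw => mem_sfx.mp (hT hw) r hr⟩
      obtain ⟨g₁, hg₁, hgi⟩ := card_fixer_const hG hSc hTc
      have hcT : Nat.card R = 2 ^ (Nat.card (fixer G T)).factorization 2 := by
        rw [← card_fixer_eq hg₁ hgi]; exact hcard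
      let Q : Subgroup (Perm α) := R.map (MulAut.conj g).toMonoidHom
      let P₁ : Sylow 2 (fixer G T) := Sylow.ofCard (Q.subgroupOf (fixer G T)) (by
        rw [Nat.card_congr (Subgroup.subgroupOfEquivOfLe hgT).toEquiv,
          Subgroup.card_map_of_injective (MulAut.conj g).injective, hcT])
      let P₂ : Sylow 2 (fixer G T) := Sylow.ofCard (R.subgroupOf (fixer G T)) (by
        rw [Nat.card_congr (Subgroup.subgroupOfEquivOfLe hRT).toEquiv, hcT])
      obtain ⟨x, hx⟩ := MulAction.exists_smul_eq (fixer G T) P₁ P₂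
      refine ⟨x, x.2, ?_⟩
      have hsub : Q.map (MulAut.conj (x : Perm α)).toMonoidHom ≤ R := by
        rintro _ ⟨q, hq, rfl⟩
        have h1 : (⟨q, hgT hq⟩ : fixer G T) ∈ (P₁ : Subgroup (fixer G T)) := by
          rw [Sylow.coe_ofCard, Subgroup.mem_subgroupOf]; exact hq
        have h2 := Subgroup.smul_mem_pointwise_smul _ (MulAut.conj x) _ h1
        rw [← Sylow.coe_subgroup_smul] at h2
        have h3 : (MulAut.conj x • (⟨q, hgT hq⟩ : fixer G T)) ∈ (P₂ : Subgroup (fixer G T)) := by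
          rw [← hx]; exact h2
        rw [Sylow.coe_ofCard, Subgroup.mem_subgroupOf] at h3
        exact h3
      rw [show (MulAut.conj ((x : Perm α) * g)).toMonoidHom =
        (MulAut.conj (x : Perm α)).toMonoidHom.comp (MulAut.conj g).toMonoidHom from by
          ext w; simp [mul_assoc], ← Subgroup.map_map]
      refine Subgroup.eq_of_le_of_card_ge hsub ?_
      rw [Subgroup.card_map_of_injective (MulAut.conj (x : Perm α)).injective,
        Subgroup.card_map_of_injective (MulAut.conj g).injective]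
    push Not at hS
    refine descend R hR1 hRc (mt_of (by rw [Fintype.card_coe]; omega) ?_)
    refine Cfsg.Agent.S0743.result (imgOn (nz G R) (sfx R)) Nat.prime_two (by omega)
      (by rw [Fintype.card_coe]; omega) fun s hs => ?_
    set S := s.map (Function.Embedding.subtype _) with hSdef
    have hSR : S ⊆ sfx R := by
      intro w hw; obtain ⟨v, -, rfl⟩ := mem_map.mp hw; exact v.2
    have hSc : S.card = k := by rw [hSdef, card_map, hs]
    have hRS : R ≤ fixer G S := fun r hr => ⟨hRG hr, fun w hw => mem_sfx.mp (hSR hw) r hr⟩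
    have hR2' : IsPGroup 2 (R.subgroupOf (fixer G S)) :=
      hR2.of_equiv (Subgroup.subgroupOfEquivOfLe hRS).symm
    obtain ⟨P, hP⟩ := hR2'.exists_le_sylow
    have hRP : R ≤ (P : Subgroup (fixer G S)).map (fixer G S).subtype := by
      rw [← Subgroup.map_subgroupOf_eq_of_le hRS]
      exact Subgroup.map_mono hP
    have hne : R.subgroupOf ((P : Subgroup (fixer G S)).map (fixer G S).subtype) ≠ ⊤ := by
      intro h
      rw [Subgroup.subgroupOf_eq_top] at h
      apply hS S hSR hSc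
      rw [le_antisymm hRP h, Subgroup.card_map_of_injective (fixer G S).subtype_injective]
      exact Sylow.card_eq_multiplicity P
    have hPp : IsPGroup 2 ((P : Subgroup (fixer G S)).map (fixer G S).subtype) := P.isPGroup'.map _
    haveI := hPp.isNilpotent
    set PG := (P : Subgroup (fixer G S)).map (fixer G S).subtype with hPG
    have hlt := Group.normalizerCondition_of_isNilpotent _ (lt_top_iff_ne_top.mpr hne)
    obtain ⟨w, hwN, hwR⟩ := SetLike.exists_of_lt hlt
    set R' := PG ⊓ Subgroup.normalizer (R : Set (Perm α)) with hR'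
    have hwR' : (w : Perm α) ∈ R' := by
      refine Subgroup.mem_inf.mpr ⟨w.2, ?_⟩
      rw [Subgroup.mem_normalizer_iff] at hwN ⊢
      intro r
      constructor
      · intro hr
        simpa [Subgroup.mem_subgroupOf] using (hwN ⟨r, hRP hr⟩).mp hr
      · intro hr
        have hrP : r ∈ PG := by
          have h1 := hRP hr
          have := PG.mul_mem (PG.mul_mem (PG.inv_mem w.2) h1) w.2
          simpa [mul_assoc] using this
        exact (hwN ⟨r, hrP⟩).mpr (by simpa [Subgroup.mem_subgroupOf] using hr)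
    have hRR' : R < R' := by
      refine lt_of_le_of_ne (le_inf hRP Subgroup.le_normalizer) fun h => hwR ?_
      rw [Subgroup.mem_subgroupOf, h]
      exact hwR'
    have hR'G : R' ≤ fixer G S := inf_le_left.trans (Subgroup.map_subtype_le _)
    have hR'nz : R' ≤ nz G R := fun r hr => Subgroup.mem_inf.mpr ⟨(hR'G hr).1, (Subgroup.mem_inf.mp hr).2⟩
    have hR'fix : sfx R' = S := by
      refine (eq_of_subset_of_card_le (fun x hx => mem_sfx.mpr fun r hr => (hR'G hr).2 x hx) ?_).symm
      by_contra hgt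
      refine not_le_of_gt hRR' (hRmax ⟨fun r hr => (hR'G hr).1, hPp.to_le inf_le_left, ?_, by omega⟩ hRR'.le)
      exact ne_bot_of_gt hRR'
    have hiff : ∀ r ∈ R', ∀ a, r a ∈ sfx R ↔ a ∈ sfx R := by
      intro r hr a
      refine ⟨fun ha => ?_, nz_maps (hR'nz hr)⟩
      simpa using nz_maps ((nz G R).inv_mem (hR'nz hr)) ha
    let ψ : R' →* imgOn (nz G R) (sfx R) :=
      { toFun := fun r => ⟨(r : Perm α).subtypePerm (p := (· ∈ sfx R)) (hiff r r.2),
          ⟨r, hR'nz r.2, fun _ => rfl⟩⟩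
        map_one' := Subtype.ext (Equiv.ext fun _ => rfl)
        map_mul' := fun _ _ => Subtype.ext (Equiv.ext fun _ => rfl) }
    refine ⟨ψ.range, (hPp.to_le inf_le_left).of_surjective ψ.rangeRestrict ψ.rangeRestrict_surjective, ?_⟩
    ext x
    rw [MulAction.mem_fixedPoints, mem_coe]
    constructor
    · intro h
      have h1 : (x : α) ∈ sfx R' := mem_sfx.mpr fun r hr =>
        congrArg Subtype.val (h ⟨ψ ⟨r, hr⟩, ⟨⟨r, hr⟩, rfl⟩⟩)
      rw [hR'fix, hSdef, mem_map] at h1
      obtain ⟨y, hy, he⟩ := h1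
      rwa [← (Subtype.ext he : y = x)]
    · intro hx
      rintro ⟨_, r, rfl⟩
      exact Subtype.ext ((hR'G r.2).2 x (mem_map_of_mem _ hx))
  push Not at h0
  by_cases hA : ∃ t ∈ G, t * t = 1 ∧ t ≠ 1 ∧ (fx t).card = k
  · obtain ⟨t, ht, ht2, ht1, htc⟩ := hA
    exact sw_case_even hk hG h0 ht ht2 ht1 htc
  push Not at hA
  have hlt : ∀ g ∈ G, g * g = 1 → g ≠ 1 → (fx g).card < k := fun g hg h2 h1 =>
    lt_of_le_of_ne (h0 g hg h2 h1) (hA g hg h2 h1)
  by_cases hC : ∃ t ∈ G, t * t = 1 ∧ t ≠ 1 ∧ (fx t).card + 1 = k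
  · obtain ⟨t, ht, ht2, ht1, htc⟩ := hC
    exact sw_case_odd hk hG hlt ht ht2 ht1 htc
  push Not at hC
  have hI : InvSmall G k := fun g hg h2 h1 => by
    have := hlt g hg h2 h1
    have := hC g hg h2 h1
    omega
  obtain ⟨Γ, hΓ, e, he, hfix⟩ := exists_fixed_point hk hkn hG hI
  by_cases hb : fixer G Γ = ⊥
  · have htriv : ∀ s : Finset α, s.card = k → fixer G s = ⊥ := by
      intro s hs
      obtain ⟨g, hg, hgi⟩ := card_fixer_const hG hΓ hs
      rw [← Subgroup.card_eq_one, ← card_fixer_eq hg hgi, hb, Subgroup.card_bot]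
    have hn := eq_add_two hk hkn hG hI htriv
    have hA' : alternatingGroup α ≤ G := by
      refine IsMultiplyPretransitive.alternatingGroup_le _ G ?_
      rw [Nat.card_eq_fintype_card, hn, Nat.add_sub_cancel]
      exact imt_of hG
    obtain ⟨Δ, -, hΔ⟩ := exists_subset_card_eq (s := (univ : Finset α)) (n := k + 1) (by rw [card_univ]; omega)
    exact ⟨Δ, hΔ, fun σ _ hs => ⟨σ, hA' (Perm.mem_alternatingGroup.mpr hs), fun _ _ => rfl⟩⟩
  have hPG : fixer G Γ ≤ G := fun g hg => hg.1
  have hsub : insert e Γ ⊆ sfx (fixer G Γ) := by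
    intro x hx
    rw [mem_sfx]
    intro g hg
    rcases mem_insert.mp hx with rfl | hx
    exacts [hfix g hg, hg.2 x hx]
  have hc : k < (sfx (fixer G Γ)).card := by
    have := card_le_card hsub
    rw [card_insert_of_notMem he] at this
    omega
  refine descend _ hb hc (witt hkn.le hG _ hPG hc.le fun T hT hTc g hg hgT => ?_)
  obtain ⟨g₁, hg₁, hgi⟩ := card_fixer_const hG hΓ hTc
  have hle : fixer G Γ ≤ fixer G T := fun r hr => ⟨hr.1, fun w hw => mem_sfx.mp (hT hw) r hr⟩
  have hcard : Nat.card (fixer G Γ) = Nat.card (fixer G T) := card_fixer_eq hg₁ hgi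
  refine ⟨1, (fixer G T).one_mem, ?_⟩
  rw [one_mul, Subgroup.eq_of_le_of_card_ge hgT
    (by rw [Subgroup.card_map_of_injective (MulAut.conj g).injective, hcard])]
  exact (Subgroup.eq_of_le_of_card_ge hle hcard.ge).symm

end CfsgLib.LW
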