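import Mathlib

/-!
Basic notions for the Livingstone–Wagner theorems.
-/

set_option autoImplicit false
set_option linter.unusedSectionVars false
set_option linter.style.haveILetI false
set_option linter.deprecated false

namespace CfsgLib.LW

open Equiv Finset

variable {α : Type*} [Fintype α] [DecidableEq α]

/-- Any injective assignment on at most `k` points is induced. -/
def MT (G : Subgroup (Perm α)) (k : ℕ) : Prop :=
  ∀ (s : Finset α) (h : α → α), s.card ≤ k → Set.InjOn h s → ∃ g ∈ G, ∀ x ∈ s, g x = h x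

/-- Transitivity on `k`-sets. -/
def Hom (G : Subgroup (Perm α)) (k : ℕ) : Prop :=
  ∀ s t : Finset α, s.card = k → t.card = k → ∃ g ∈ G, s.image g = t

/-- All even permutations of `Δ` are induced. -/
def AltInd (G : Subgroup (Perm α)) (Δ : Finset α) : Prop :=
  ∀ σ : Perm α, (∀ x ∉ Δ, σ x = x) → Perm.sign σ = 1 → ∃ g ∈ G, ∀ x ∈ Δ, g x = σ x

/-- All permutations of `Δ` are induced. -/
def SymInd (G : Subgroup (Perm α)) (Δ : Finset α) : Prop :=
  ∀ σ : Perm α, (∀ x ∉ Δ, σ x = x) → ∃ g ∈ G, ∀ x ∈ Δ, g x = σ x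

/-- The fixed points of a permutation. -/
def fx (g : Perm α) : Finset α := univ.filter fun x => g x = x

theorem mem_fx {g : Perm α} {x : α} : x ∈ fx g ↔ g x = x := by simp [fx]

/-- The pointwise stabiliser. -/
def fixer (G : Subgroup (Perm α)) (s : Finset α) : Subgroup (Perm α) where
  carrier := {g | g ∈ G ∧ ∀ x ∈ s, g x = x}
  one_mem' := ⟨G.one_mem, fun _ _ => rfl⟩
  mul_mem' := fun {a b} ha hb => ⟨G.mul_mem ha.1 hb.1, fun x hx => by
    rw [Perm.mul_apply, hb.2 x hx, ha.2 x hx]⟩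
  inv_mem' := fun {a} ha => ⟨G.inv_mem ha.1, fun x hx => by
    rw [Perm.inv_eq_iff_eq]; exact (ha.2 x hx).symm⟩

theorem mem_fixer {G : Subgroup (Perm α)} {s : Finset α} {g : Perm α} :
    g ∈ fixer G s ↔ g ∈ G ∧ ∀ x ∈ s, g x = x := Iff.rfl

/-- No involution fixes `s` pointwise. -/
def NoInv (G : Subgroup (Perm α)) (s : Finset α) : Prop :=
  ∀ g ∈ fixer G s, g * g = 1 → g = 1

theorem NoInv.mono {G : Subgroup (Perm α)} {s t : Finset α} (h : NoInv G s) (hst : s ⊆ t) :
    NoInv G t := fun g hg => h g ⟨hg.1, fun x hx => hg.2 x (hst hx)⟩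

theorem mt_of {G : Subgroup (Perm α)} {k : ℕ} (hk : k ≤ Fintype.card α)
    (hG : MulAction.IsMultiplyPretransitive G α k) : MT G k := by
  intro s h hs hinj
  haveI := hG
  haveI : MulAction.IsMultiplyPretransitive G α s.card :=
    MulAction.isMultiplyPretransitive_of_le (n := k) hs (by rwa [Nat.card_eq_fintype_card])
  let e := s.equivFin.symm
  let x : Fin s.card ↪ α := ⟨fun i => (e i : α), Subtype.val_injective.comp e.injective⟩
  let y : Fin s.card ↪ α := ⟨fun i => h (e i : α), fun i j hij =>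
    e.injective (Subtype.ext (hinj (e i).2 (e j).2 hij))⟩
  obtain ⟨g, hg⟩ := MulAction.exists_smul_eq G x y
  refine ⟨g, g.2, fun a ha => ?_⟩
  have := DFunLike.congr_fun hg (s.equivFin ⟨a, ha⟩)
  have e2 : (s.equivFin.symm (s.equivFin ⟨a, ha⟩) : α) = a := by simp
  simp only [Function.Embedding.smul_apply, x, y, e] at this
  exact (congrArg (⇑(g : Perm α)) e2).symm.trans (this.trans (congrArg h e2))

theorem imt_of {G : Subgroup (Perm α)} {k : ℕ} (h : MT G k) :
    MulAction.IsMultiplyPretransitive G α k := by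
  rw [MulAction.isMultiplyPretransitive_iff]
  intro x y
  classical
  obtain ⟨g, hg, hx⟩ := h (univ.image x) (fun a => if ha : ∃ i, x i = a then y ha.choose else a)
    (by rw [card_image_of_injective _ x.injective]; simp) (by
      intro a ha b hb hab
      simp only [coe_image, coe_univ, Set.image_univ, Set.mem_range] at ha hb
      simp only [dif_pos ha, dif_pos hb] at hab
      rw [← ha.choose_spec, ← hb.choose_spec, y.injective hab])
  refine ⟨⟨g, hg⟩, ?_⟩
  ext i
  have hi : ∃ j, x j = x i := ⟨i, rfl⟩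
  have := hx (x i) (mem_image_of_mem _ (mem_univ i))
  simp only [dif_pos hi, x.injective hi.choose_spec] at this
  simpa [Subgroup.smul_def] using this

theorem MT.mono {G : Subgroup (Perm α)} {j k : ℕ} (h : MT G k) (hj : j ≤ k) : MT G j :=
  fun s f hs hf => h s f (hs.trans hj) hf

theorem hom_of {G : Subgroup (Perm α)} {k : ℕ} (h : MulAction.IsPretransitive G (Set.powersetCard α k)) :
    Hom G k := by
  intro s t hs ht
  haveI := h
  obtain ⟨g, hg⟩ := MulAction.exists_smul_eq G (⟨s, hs⟩ : Set.powersetCard α k) ⟨t, ht⟩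
  refine ⟨g, g.2, ?_⟩
  have : ((g • (⟨s, hs⟩ : Set.powersetCard α k) : Set.powersetCard α k) : Finset α) = t :=
    congrArg Subtype.val hg
  rw [← this]
  ext a
  simp [Finset.mem_smul_finset, Subgroup.smul_def]

/-- Extend an assignment at one point. -/
theorem injOn_update {s : Finset α} {f : α → α} (hf : Set.InjOn f s) {a b : α} (ha : a ∉ s)
    (hb : ∀ x ∈ s, f x ≠ b) : Set.InjOn (Function.update f a b) ↑(insert a s) := by
  rintro x hx y hy h
  simp only [coe_insert, Set.mem_insert_iff, mem_coe] at hx hy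
  rcases hx with rfl | hx <;> rcases hy with rfl | hy
  · rfl
  · rw [Function.update_self, Function.update_of_ne (fun e : y = x => ha (by rwa [e] at hy))] at h
    exact absurd h.symm (hb y hy)
  · rw [Function.update_self, Function.update_of_ne (fun e : x = y => ha (by rwa [e] at hx))] at h
    exact absurd h (hb x hx)
  · rw [Function.update_of_ne (fun e : x = a => ha (by rwa [e] at hx)),
      Function.update_of_ne (fun e : y = a => ha (by rwa [e] at hy))] at h
    exact hf hx hy h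

theorem exists_subset_avoid {A : Finset α} {m : ℕ} (h : m + A.card ≤ Fintype.card α) :
    ∃ B : Finset α, B.card = m ∧ Disjoint B A := by
  obtain ⟨B, hB, hc⟩ := exists_subset_card_eq (s := Aᶜ) (n := m) (by rw [card_compl]; omega)
  exact ⟨B, hc, Finset.disjoint_left.mpr fun x hx hxA => by simpa [hxA] using hB hx⟩

theorem orderOf_odd {G : Subgroup (Perm α)} {s : Finset α} (h : NoInv G s) {g : Perm α}
    (hg : g ∈ fixer G s) : Odd (orderOf g) := by
  rw [← Nat.not_even_iff_odd]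
  rintro ⟨j, hj⟩
  have hpos := orderOf_pos g
  have h1 : g ^ j = 1 := h _ ((fixer G s).pow_mem hg j) (by rw [← pow_add, ← hj, pow_orderOf_eq_one])
  have := Nat.le_of_dvd (by omega) (orderOf_dvd_of_pow_eq_one h1)
  omega

theorem odd_card_fixer {G : Subgroup (Perm α)} {s : Finset α} (h : NoInv G s) :
    Odd (Nat.card (fixer G s)) := by
  rw [← Nat.not_even_iff_odd, even_iff_two_dvd]
  intro h2
  haveI := Fact.mk Nat.prime_two
  obtain ⟨g, hg⟩ := exists_prime_orderOf_dvd_card' 2 h2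
  have h3 := orderOf_odd h g.2
  rw [Subgroup.orderOf_coe, hg] at h3
  exact absurd h3 (by decide)

/-- An odd element cannot interchange two points. -/
theorem eq_of_swap {g : Perm α} (hg : Odd (orderOf g)) {e f : α} (h1 : g e = f) (h2 : g f = e) :
    e = f := by
  obtain ⟨j, hj⟩ := hg
  have h4 : ∀ i : ℕ, ((g * g) ^ i) e = e := by
    intro i
    induction i with
    | zero => rfl
    | succ i ih => rw [pow_succ', Perm.mul_apply, ih, Perm.mul_apply, h1, h2]
  have h5 : (g ^ orderOf g) e = f := by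
    rw [hj, pow_succ', pow_mul, pow_two, Perm.mul_apply, h4, h1]
  rw [pow_orderOf_eq_one] at h5
  exact h5

theorem pow_apply_of_fixed {g : Perm α} {x : α} (h : g x = x) (n : ℕ) : (g ^ n) x = x := by
  induction n with
  | zero => rfl
  | succ n ih => rw [pow_succ', Perm.mul_apply, ih, h]

/-- An involution agreeing with `g` on `D`. -/
theorem lift_inv {G : Subgroup (Perm α)} {D : Finset α} (hD : NoInv G D) {g : Perm α} (hg : g ∈ G)
    (h2 : ∀ x ∈ D, g (g x) = x) {a : α} (ha : a ∈ D) (hga : g a ≠ a) :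
    ∃ t ∈ G, t * t = 1 ∧ t ≠ 1 ∧ ∀ x ∈ D, t x = g x := by
  have hsq : g * g ∈ fixer G D := ⟨G.mul_mem hg hg, fun x hx => h2 x hx⟩
  obtain ⟨j, hj⟩ := orderOf_odd hD hsq
  set m := orderOf (g * g) with hm
  have hagree : ∀ x ∈ D, (g ^ m) x = g x := by
    intro x hx
    rw [hj, pow_succ', pow_mul, pow_two, Perm.mul_apply, pow_apply_of_fixed (hsq.2 x hx)]
  refine ⟨g ^ m, G.pow_mem hg m, ?_, fun h => hga ?_, hagree⟩
  · rw [← (Commute.refl g).mul_pow, hm, pow_orderOf_eq_one]
  · rw [← hagree a ha, h, Perm.one_apply]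

/-- An involution commuting with `t` and agreeing with `u₀` on `D`. -/
theorem lift_commute {G : Subgroup (Perm α)} {D : Finset α} (hD : NoInv G D) {t u₀ : Perm α}
    (ht : t ∈ G) (hu : u₀ ∈ G) (ht2 : t * t = 1) (hu2 : u₀ * u₀ = 1)
    (hcomm : ∀ x ∈ D, t (u₀ x) = u₀ (t x)) :
    ∃ u ∈ G, u * u = 1 ∧ t * u = u * t ∧ ∀ x ∈ D, u x = u₀ x := by
  set x := t * u₀ with hx
  have htt : ∀ y, t (t y) = y := fun y => by rw [← Perm.mul_apply, ht2, Perm.one_apply]
  have huu : ∀ y, u₀ (u₀ y) = y := fun y => by rw [← Perm.mul_apply, hu2, Perm.one_apply]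
  have hx2 : x * x ∈ fixer G D := ⟨G.mul_mem (G.mul_mem ht hu) (G.mul_mem ht hu), fun y hy => by
    simp only [hx, Perm.mul_apply]
    rw [hcomm y hy, huu, htt]⟩
  obtain ⟨j, hj⟩ := orderOf_odd hD hx2
  set m := orderOf (x * x) with hm
  have hxm : x ^ m * x ^ m = 1 := by rw [← (Commute.refl x).mul_pow, hm, pow_orderOf_eq_one]
  have hconj : u₀ * x * u₀⁻¹ = x⁻¹ := by
    rw [hx, mul_inv_rev, inv_eq_of_mul_eq_one_left hu2, inv_eq_of_mul_eq_one_left ht2]
    simp only [mul_assoc, hu2, mul_one]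
  have hti : t⁻¹ = t := inv_eq_of_mul_eq_one_left ht2
  set u := u₀ * x ^ (2 * j) with huq
  have hu_sq : u * u = 1 := by
    have : u₀ * x ^ (2 * j) * u₀⁻¹ = (x ^ (2 * j))⁻¹ := by rw [← conj_pow, hconj, inv_pow]
    rw [inv_eq_of_mul_eq_one_left hu2] at this
    rw [huq, ← mul_assoc, this, inv_mul_cancel]
  have htu : t * u = x ^ m := by
    rw [huq, ← mul_assoc, ← hx, ← pow_succ', ← hj]
  refine ⟨u, G.mul_mem hu (G.pow_mem (G.mul_mem ht hu) _), hu_sq, ?_, fun y hy => ?_⟩
  · have : (t * u)⁻¹ = t * u := inv_eq_of_mul_eq_one_left (by rw [htu, hxm])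
    rw [mul_inv_rev, inv_eq_of_mul_eq_one_left hu_sq, hti] at this
    exact this.symm
  · rw [huq, Perm.mul_apply, pow_mul, pow_two, pow_apply_of_fixed (hx2.2 y hy)]

theorem fx_of_commute {t u : Perm α} (h : t * u = u * t) {x : α} (hx : x ∈ fx t) : u x ∈ fx t := by
  rw [mem_fx] at hx ⊢
  rw [← Perm.mul_apply, h, Perm.mul_apply, hx]

/-- An involutive map on a finite set of odd size has a fixed point. -/
theorem exists_fixed_of_odd {β : Type*} [DecidableEq β] (s : Finset β) (f : β → β)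
    (hs : Odd s.card) (hmem : ∀ x ∈ s, f x ∈ s) (hinv : ∀ x ∈ s, f (f x) = x) :
    ∃ x ∈ s, f x = x := by
  by_contra hne
  push Not at hne
  have h : ∑ _x ∈ s, (1 : ZMod 2) = 0 :=
    Finset.sum_involution (fun x _ => f x) (fun _ _ => by decide) (fun x hx _ => hne x hx)
      hmem hinv
  rw [Finset.sum_const, nsmul_one, ZMod.natCast_eq_zero_iff_even] at h
  exact Nat.not_even_iff_odd.mpr hs h

theorem card_inv_odd {K : Subgroup (Perm α)} [DecidablePred (· ∈ K)] (h2 : Even (Nat.card K)) :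
    Odd (univ.filter fun g : Perm α => g ∈ K ∧ g * g = 1 ∧ g ≠ 1).card := by
  set A := univ.filter fun g : Perm α => g ∈ K
  have hA : Nat.card K = A.card := by
    rw [Nat.card_eq_fintype_card, Fintype.card_subtype]
  set B := A.filter fun g => g * g = 1
  have hBC : A.filter (fun g => ¬ (g * g = 1)) = A.filter (fun g => g⁻¹ ≠ g) := by
    refine Finset.filter_congr fun g _ => ?_
    exact not_congr ⟨fun h => inv_eq_of_mul_eq_one_left h, fun h => by nth_rw 1 [← h]; rw [inv_mul_cancel]⟩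
  have hC : Even (A.filter (fun g => g⁻¹ ≠ g)).card := by
    by_contra hodd
    obtain ⟨g, hg, hfix⟩ := exists_fixed_of_odd (A.filter (fun g => g⁻¹ ≠ g)) (·⁻¹)
      (Nat.not_even_iff_odd.mp hodd) (fun g hg => by
        simp only [A, mem_filter, mem_univ, true_and, inv_inv, inv_mem_iff] at hg ⊢
        exact ⟨hg.1, fun h => hg.2 h.symm⟩) (fun g _ => inv_inv g)
    exact (mem_filter.mp hg).2 hfix
  have hB : Even B.card := by
    have := Finset.card_filter_add_card_filter_not (s := A) (fun g => g * g = 1)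
    rw [hBC, ← hA] at this
    rw [← this] at h2
    exact (Nat.even_add.mp h2).mpr hC
  have e : (univ.filter fun g : Perm α => g ∈ K ∧ g * g = 1 ∧ g ≠ 1) = B.erase 1 := by
    ext g
    simp only [B, A, mem_filter, mem_univ, true_and, mem_erase]
    tauto
  have h1 : (1 : Perm α) ∈ B := by simp [B, A]
  rw [e, card_erase_of_mem h1]
  have := card_pos.mpr ⟨1, h1⟩
  obtain ⟨r, hr⟩ := hB
  exact ⟨r - 1, by omega⟩

theorem image_mem_iff {g : Perm α} {s t : Finset α} (h : s.image g = t) {x : α} :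
    g x ∈ t ↔ x ∈ s := by
  rw [← h]; simp

theorem fixer_conj {G : Subgroup (Perm α)} {g : Perm α} (hg : g ∈ G) {s t : Finset α}
    (h : s.image g = t) {x : Perm α} : g * x * g⁻¹ ∈ fixer G t ↔ x ∈ fixer G s := by
  simp only [mem_fixer]
  constructor
  · rintro ⟨h1, h2⟩
    refine ⟨by simpa [mul_assoc] using G.mul_mem (G.mul_mem (G.inv_mem hg) h1) hg, fun y hy => ?_⟩
    have := h2 (g y) ((image_mem_iff h).mpr hy)
    simpa using this
  · rintro ⟨h1, h2⟩
    refine ⟨G.mul_mem (G.mul_mem hg h1) (G.inv_mem hg), fun y hy => ?_⟩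
    rw [← h, mem_image] at hy
    obtain ⟨z, hz, rfl⟩ := hy
    simp [h2 z hz]

theorem card_fixer_eq {G : Subgroup (Perm α)} {g : Perm α} (hg : g ∈ G) {s t : Finset α}
    (h : s.image g = t) : Nat.card (fixer G s) = Nat.card (fixer G t) := by
  refine Nat.card_congr ⟨fun x => ⟨g * x.1 * g⁻¹, (fixer_conj hg h).mpr x.2⟩,
    fun x => ⟨g⁻¹ * x.1 * g, (fixer_conj hg h).mp (by simpa [mul_assoc] using x.2)⟩,
    fun x => ?_, fun x => ?_⟩ <;> exact Subtype.ext (by simp [mul_assoc])

theorem symInd_of_swaps {G : Subgroup (Perm α)} {Δ : Finset α}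
    (h : ∀ a ∈ Δ, ∀ b ∈ Δ, a ≠ b → ∃ g ∈ G, ∀ x ∈ Δ, g x = swap a b x) : SymInd G Δ := by
  intro σ hσ
  induction hn : σ.support.card using Nat.strong_induction_on generalizing σ with
  | _ n ih =>
    subst hn
    by_cases h1 : σ = 1
    · exact ⟨1, G.one_mem, fun x _ => by simp [h1]⟩
    obtain ⟨a, ha⟩ : ∃ a, σ a ≠ a := by
      by_contra hc; push Not at hc; exact h1 (Equiv.ext hc)
    have haΔ : a ∈ Δ := by by_contra hc; exact ha (hσ a hc)
    have hbΔ : σ a ∈ Δ := by
      by_contra hc; exact ha (σ.injective (hσ _ hc))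
    obtain ⟨g, hg, hgx⟩ := h a haΔ (σ a) hbΔ (Ne.symm ha)
    obtain ⟨g', hg', hgx'⟩ := ih (swap a (σ a) * σ).support.card
      (Perm.card_support_swap_mul ha) (swap a (σ a) * σ) (fun x hx => by
        rw [Perm.mul_apply, hσ x hx]
        exact swap_apply_of_ne_of_ne (fun e => hx (e ▸ haΔ)) (fun e => hx (e ▸ hbΔ))) rfl
    refine ⟨g * g', G.mul_mem hg hg', fun x hx => ?_⟩
    have hmem : (swap a (σ a) * σ) x ∈ Δ := by
      have hσx : σ x ∈ Δ := by
        by_contra hc
        exact hc ((σ.injective (hσ _ hc)).symm ▸ hx)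
      rw [Perm.mul_apply]
      rcases eq_or_ne (σ x) a with e | e
      · rwa [e, swap_apply_left]
      rcases eq_or_ne (σ x) (σ a) with e' | e'
      · rwa [e', swap_apply_right]
      rwa [swap_apply_of_ne_of_ne e e']
    rw [Perm.mul_apply, hgx' x hx, hgx _ hmem, Perm.mul_apply, swap_apply_self]

theorem symInd_conj {G : Subgroup (Perm α)} {Δ Δ' : Finset α} (h : SymInd G Δ) {g : Perm α}
    (hg : g ∈ G) (hgi : Δ.image g = Δ') : SymInd G Δ' := by
  intro σ hσ
  obtain ⟨x, hx, hxy⟩ := h (g⁻¹ * σ * g) (fun y hy => by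
    simp [hσ (g y) (fun hc => hy ((image_mem_iff hgi).mp hc))])
  refine ⟨g * x * g⁻¹, G.mul_mem (G.mul_mem hg hx) (G.inv_mem hg), fun y hy => ?_⟩
  rw [← hgi, mem_image] at hy
  obtain ⟨z, hz, rfl⟩ := hy
  simp [hxy z hz]

theorem altInd_conj {G : Subgroup (Perm α)} {Δ Δ' : Finset α} (h : AltInd G Δ) {g : Perm α}
    (hg : g ∈ G) (hgi : Δ.image g = Δ') : AltInd G Δ' := by
  intro σ hσ hs
  obtain ⟨x, hx, hxy⟩ := h (g⁻¹ * σ * g) (fun y hy => by
    simp [hσ (g y) (fun hc => hy ((image_mem_iff hgi).mp hc))]) (by simp [hs, mul_comm])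
  refine ⟨g * x * g⁻¹, G.mul_mem (G.mul_mem hg hx) (G.inv_mem hg), fun y hy => ?_⟩
  rw [← hgi, mem_image] at hy
  obtain ⟨z, hz, rfl⟩ := hy
  simp [hxy z hz]

/-- An extra transposition extends alternating to symmetric. -/
theorem symInd_of_alt {G : Subgroup (Perm α)} {Δ : Finset α} (h : AltInd G Δ) {a b : α}
    (ha : a ∈ Δ) (hb : b ∈ Δ) (hab : a ≠ b) {t : Perm α} (ht : t ∈ G)
    (htx : ∀ x ∈ Δ, t x = swap a b x) : SymInd G Δ := by
  intro σ hσ
  rcases Int.units_eq_one_or (Perm.sign σ) with hs | hs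
  · exact h σ hσ hs
  obtain ⟨g, hg, hgx⟩ := h (σ * swap a b) (fun x hx => by
    have e1 : x ≠ a := fun e => hx (by rw [e]; exact ha)
    have e2 : x ≠ b := fun e => hx (by rw [e]; exact hb)
    rw [Perm.mul_apply, swap_apply_of_ne_of_ne e1 e2, hσ x hx])
    (by simp [hs, Perm.sign_swap hab])
  refine ⟨g * t, G.mul_mem hg ht, fun x hx => ?_⟩
  have hm : swap a b x ∈ Δ := by
    rcases eq_or_ne x a with e | e
    · rwa [e, swap_apply_left]
    rcases eq_or_ne x b with e' | e'
    · rwa [e', swap_apply_right]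
    rwa [swap_apply_of_ne_of_ne e e']
  rw [Perm.mul_apply, htx x hx, hgx _ hm, Perm.mul_apply, swap_apply_self]

/-- Homogeneity and full symmetric groups on the sets give transitivity. -/
theorem mt_of_symInd {G : Subgroup (Perm α)} {k : ℕ} (hk : k ≤ Fintype.card α) (hh : Hom G k)
    {Δ : Finset α} (hΔ : Δ.card = k) (hs : SymInd G Δ) : MT G k := by
  intro s f hsk hf
  obtain ⟨S, hsS, hS⟩ := exists_superset_card_eq (s := s) hsk hk
  obtain ⟨T, hT, hTc⟩ := exists_superset_card_eq (s := s.image f) (n := k)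
    ((card_image_le).trans hsk) hk
  obtain ⟨σ, hσ⟩ : ∃ σ : Perm α, (∀ x ∈ s, σ x = f x) ∧ S.image σ = T := by
    obtain ⟨e, he⟩ := Set.MapsTo.exists_equiv_extend_of_card_eq (α := S) (β := α) (t := T)
      (by simp [hS, hTc]) (f := fun x : S => f x) (s := {x : S | (x : α) ∈ s})
      (fun x hx => hT (mem_image_of_mem f hx)) (fun x hx y hy h => Subtype.ext (hf hx hy h))
    obtain ⟨σ, hσ⟩ := Set.MapsTo.exists_equiv_extend_of_card_eq (α := α) (β := α) (t := univ)
      (by simp) (f := fun x => if h : x ∈ S then (e ⟨x, h⟩ : α) else x) (s := (S : Set α))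
      (fun x _ => by simp) (fun x hx y hy h => by
        simp only [mem_coe] at hx hy
        simp only [dif_pos hx, dif_pos hy] at h
        exact congrArg Subtype.val (e.injective (Subtype.ext h)))
    refine ⟨σ.trans (Equiv.subtypeUnivEquiv mem_univ), fun x hx => ?_, ?_⟩
    · have h1 := hσ x (hsS hx)
      have h2 := he ⟨x, hsS hx⟩ hx
      simp only [dif_pos (hsS hx)] at h1
      simp [h1, h2]
    · refine eq_of_subset_of_card_le ?_ (by rw [card_image_of_injective _ (Equiv.injective _), hS, hTc])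
      intro y hy
      obtain ⟨x, hx, rfl⟩ := mem_image.mp hy
      have h1 := hσ x hx
      simp only [dif_pos hx] at h1
      simp [h1]
  obtain ⟨g₁, hg₁, hi₁⟩ := hh Δ S hΔ hS
  obtain ⟨g₂, hg₂, hi₂⟩ := hh S T hS hTc
  have hS' := symInd_conj hs hg₁ hi₁
  obtain ⟨h, hh', hhx⟩ : ∃ h ∈ G, ∀ x ∈ S, h x = (g₂⁻¹ * σ) x := by
    have hmem : ∀ x ∈ S, (g₂⁻¹ * σ) x ∈ S := by
      intro x hx
      rw [← image_mem_iff hi₂]
      simp [← hσ.2, mem_image_of_mem _ hx]
    have hiff : ∀ x, (g₂⁻¹ * σ) x ∈ S ↔ x ∈ S := by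
      intro x
      refine ⟨fun hx => ?_, hmem x⟩
      have e : S.image (g₂⁻¹ * σ) = S := eq_of_subset_of_card_le (image_subset_iff.mpr hmem)
        (by rw [card_image_of_injective _ (Equiv.injective _)])
      exact (image_mem_iff e).mp hx
    let τ : Perm α := Perm.ofSubtype ((g₂⁻¹ * σ).subtypePerm (p := (· ∈ S)) hiff)
    obtain ⟨h, hh', hhx⟩ := hS' τ (fun x hx => Perm.ofSubtype_apply_of_not_mem _ hx)
    exact ⟨h, hh', fun x hx => by
      rw [hhx x hx]; exact Perm.ofSubtype_apply_of_mem _ hx⟩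
  refine ⟨g₂ * h, G.mul_mem hg₂ hh', fun x hx => ?_⟩
  rw [Perm.mul_apply, hhx x (hsS hx), Perm.mul_apply]
  simp [hσ.1 x hx]

end CfsgLib.LW
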