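import Cfsg.Agent.LW.Basic
import Cfsg.Agent.S0989

/-!
Counting lemmas and the small cases of the Livingstone–Wagner theorem.
-/

set_option autoImplicit false
set_option linter.unusedSectionVars false
set_option linter.style.haveILetI false
set_option linter.deprecated false

namespace CfsgLib.LW

open Equiv Finset

variable {α : Type*} [Fintype α] [DecidableEq α] {G : Subgroup (Perm α)}

/-- Pointwise stabilisers inside `G` and inside `Perm α` have the same order. -/
theorem card_fixingSubgroup (G : Subgroup (Perm α)) (s : Finset α) :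
    Nat.card (fixingSubgroup G (s : Set α)) = Nat.card (fixer G s) :=
  Nat.card_congr
    { toFun := fun g => ⟨(g.1 : Perm α), g.1.2, fun x hx => (mem_fixingSubgroup_iff G).mp g.2 x hx⟩
      invFun := fun g => ⟨⟨g.1, g.2.1⟩, (mem_fixingSubgroup_iff G).mpr fun x hx => g.2.2 x hx⟩
      left_inv := fun _ => rfl
      right_inv := fun _ => rfl }

theorem card_group {m : ℕ} (hm : m ≤ Fintype.card α) (h : MT G m) {s : Finset α} (hs : s.card = m) :
    Nat.card G = (Fintype.card α).choose m * m.factorial * Nat.card (fixer G s) := by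
  haveI := imt_of h
  have hsn : ((s : Set α)).ncard = m := by rw [Set.ncard_coe_finset, hs]
  have h1 := MulAction.IsMultiplyPretransitive.index_of_fixingSubgroup_eq (G := G) (α := α) (s : Set α)
    (by rw [hsn]; exact imt_of h)
  rw [hsn, Nat.card_eq_fintype_card] at h1
  rw [← h1, ← card_fixingSubgroup, Subgroup.index_mul_card]

theorem choose_dvd_card {m : ℕ} (hm : m ≤ Fintype.card α) (h : Hom G m) :
    (Fintype.card α).choose m ∣ Nat.card G := by
  classical
  obtain ⟨s, -, hs⟩ := exists_subset_card_eq (s := (univ : Finset α)) (n := m) (by rwa [card_univ])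
  have himg : (univ.filter (fun g : Perm α => g ∈ G)).image (fun g : Perm α => s.image g) =
      powersetCard m (univ : Finset α) := by
    ext t
    simp only [mem_image, mem_filter, mem_univ, true_and, mem_powersetCard, subset_univ]
    constructor
    · rintro ⟨g, -, rfl⟩; rw [card_image_of_injective _ g.injective, hs]
    · intro ht
      obtain ⟨g, hg, hgt⟩ := h s t hs ht
      exact ⟨g, hg, hgt⟩
  have hc := card_eq_sum_card_image (fun g : Perm α => s.image g) (univ.filter (fun g : Perm α => g ∈ G))
  rw [himg] at hc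
  have hfib : ∀ t ∈ powersetCard m (univ : Finset α),
      ((univ.filter (fun g : Perm α => g ∈ G)).filter fun g : Perm α => s.image g = t).card =
      ((univ.filter (fun g : Perm α => g ∈ G)).filter fun g : Perm α => s.image g = s).card := by
    intro t ht
    obtain ⟨g, hg, hgt⟩ := h s t hs (mem_powersetCard.mp ht).2
    refine card_bij (fun x _ => g⁻¹ * x) ?_ (fun x _ y _ e => mul_left_cancel e) ?_
    · intro x hx
      simp only [mem_filter, mem_univ, true_and] at hx ⊢
      refine ⟨G.mul_mem (G.inv_mem hg) hx.1, ?_⟩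
      rw [Perm.coe_mul, ← image_image, hx.2, ← hgt, image_image, ← Perm.coe_mul, inv_mul_cancel,
        Perm.coe_one, image_id]
    · intro x hx
      simp only [mem_filter, mem_univ, true_and] at hx
      refine ⟨g * x, ?_, by simp⟩
      simp only [mem_filter, mem_univ, true_and]
      exact ⟨G.mul_mem hg hx.1, by rw [Perm.coe_mul, ← image_image, hx.2, hgt]⟩
  rw [sum_congr rfl hfib, sum_const, card_powersetCard, card_univ, smul_eq_mul] at hc
  have hG : Nat.card G = (univ.filter (fun g : Perm α => g ∈ G)).card := by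
    rw [Nat.card_eq_fintype_card, Fintype.card_subtype]
  exact ⟨_, hG.trans hc⟩

/-- A semiregular stabiliser has order dividing the number of remaining points. -/
theorem card_fixer_dvd {F : Finset α} (h : ∀ g ∈ fixer G F, ∀ z ∉ F, g z = z → g = 1) :
    Nat.card (fixer G F) ∣ Fᶜ.card := by
  classical
  set H := univ.filter (fun g : Perm α => g ∈ fixer G F) with hH
  have hHc : Nat.card (fixer G F) = H.card := by rw [Nat.card_eq_fintype_card, Fintype.card_subtype]
  let orb : α → Finset α := fun z => H.image (fun g => g z)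
  have horbc : ∀ z ∈ Fᶜ, (orb z).card = H.card := by
    intro z hz
    rw [mem_compl] at hz
    refine card_image_of_injOn fun g hg g' hg' e => ?_
    simp only [hH, coe_filter, mem_univ, true_and, Set.mem_setOf_eq] at hg hg'
    have := h _ ((fixer G F).mul_mem ((fixer G F).inv_mem hg') hg) z hz (by
      rw [Perm.mul_apply, Perm.inv_eq_iff_eq]; exact e)
    exact (inv_mul_eq_one.mp this).symm
  have hfib : ∀ z ∈ Fᶜ, Fᶜ.filter (fun w => orb w = orb z) = orb z := by
    intro z hz
    ext w
    rw [mem_compl] at hz
    simp only [mem_filter, mem_compl]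
    constructor
    · rintro ⟨-, hw⟩
      rw [← hw]
      exact mem_image.mpr ⟨1, by simp [hH, (fixer G F).one_mem], rfl⟩
    · intro hw
      obtain ⟨g, hg, rfl⟩ := mem_image.mp hw
      simp only [hH, mem_filter, mem_univ, true_and] at hg
      refine ⟨fun hc => hz (by
        have := g.injective (hg.2 _ hc); rwa [this] at hc), ?_⟩
      ext v
      simp only [orb, mem_image, hH, mem_filter, mem_univ, true_and]
      constructor
      · rintro ⟨x, hx, rfl⟩; exact ⟨x * g, (fixer G F).mul_mem hx hg, rfl⟩
      · rintro ⟨x, hx, rfl⟩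
        exact ⟨x * g⁻¹, (fixer G F).mul_mem hx ((fixer G F).inv_mem hg), by simp⟩
  have hc := card_eq_sum_card_image orb Fᶜ
  have hs : ∀ t ∈ Fᶜ.image orb, (Fᶜ.filter fun w => orb w = t).card = H.card := by
    intro t ht
    obtain ⟨z, hz, rfl⟩ := mem_image.mp ht
    rw [hfib z hz, horbc z hz]
  rw [sum_congr rfl hs, sum_const, smul_eq_mul] at hc
  rw [hHc, hc]
  exact dvd_mul_left _ _

/-- Restriction on orders for degree `p` or `p + 1`. -/
theorem prime_degree_index (p : ℕ) [Fact p.Prime] (hn : Fintype.card α = p ∨ Fintype.card α = p + 1)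
    (hp : p ∣ Nat.card G) : ∃ d, d ∣ Nat.card G ∧ d % p = 1 ∧ Nat.card G ∣ d * (p * (p - 1)) := by
  classical
  obtain ⟨P⟩ := Sylow.nonempty (p := p) (G := G)
  have hP' : IsPGroup p ((P : Subgroup G).map G.subtype) := P.isPGroup'.map _
  obtain ⟨S, hS⟩ := hP'.exists_le_sylow
  have hN := Cfsg.Agent.S0989.result p hn S
  have hpr : p.Prime := Fact.out
  have hSc : Nat.card (S : Subgroup (Perm α)) ∣ p := by
    obtain ⟨e, he⟩ := S.isPGroup'.exists_card_eq
    have h1 : Nat.card (S : Subgroup (Perm α)) ∣ p * (p - 1) :=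
      hN ▸ Subgroup.card_dvd_of_le Subgroup.le_normalizer
    rw [he] at h1 ⊢
    refine (Nat.Coprime.dvd_of_dvd_mul_right ?_ h1)
    exact Nat.Coprime.pow_left _ ((hpr.coprime_iff_not_dvd).mpr fun h => by
      have := hpr.two_le
      have := Nat.le_of_dvd (by have := hpr.two_le; omega) h
      omega)
  have hPc : p ∣ Nat.card ((P : Subgroup G).map G.subtype) := by
    rw [Subgroup.card_map_of_injective G.subtype_injective]
    exact P.dvd_card_of_dvd_card hp
  have hPS : (P : Subgroup G).map G.subtype = (S : Subgroup (Perm α)) :=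
    Subgroup.eq_of_le_of_card_ge hS (by
      refine (Nat.le_of_dvd hpr.pos hSc).trans (Nat.le_of_dvd Nat.card_pos hPc))
  have hNle : (Subgroup.normalizer ((P : Subgroup G) : Set G)).map G.subtype ≤
      Subgroup.normalizer ((S : Subgroup (Perm α)) : Set (Perm α)) := by
    rw [← hPS]
    exact Subgroup.le_normalizer_map _
  have hNd : Nat.card (Subgroup.normalizer ((P : Subgroup G) : Set G)) ∣ p * (p - 1) := by
    rw [← hN]
    exact (dvd_of_eq (Subgroup.card_map_of_injective G.subtype_injective).symm).trans
      (Subgroup.card_dvd_of_le hNle)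
  refine ⟨(Subgroup.normalizer ((P : Subgroup G) : Set G)).index, Subgroup.index_dvd_card _, ?_, ?_⟩
  · have hcn : Nat.card (Sylow p G) = (Subgroup.normalizer ((P : Subgroup G) : Set G)).index :=
      Sylow.card_eq_index_normalizer P
    rw [← hcn]
    have := card_sylow_modEq_one p G
    rwa [Nat.ModEq, Nat.one_mod_eq_one.mpr hpr.ne_one] at this
  · rw [← Subgroup.index_mul_card (Subgroup.normalizer ((P : Subgroup G) : Set G))]
    exact Nat.mul_dvd_mul_left _ hNd

theorem prime_degree_false (p : ℕ) [Fact p.Prime] (hn : Fintype.card α = p ∨ Fintype.card α = p + 1)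
    (M g : ℕ) (hG : Nat.card G = M * g) (hp : p ∣ M * g) (hg : g ∣ p * (p - 1))
    (hcop : Nat.Coprime M (p * (p - 1) / g)) (hg0 : 0 < g) (hM : 0 < M)
    (hall : ∀ e ∈ Finset.range (g + 1), e ∣ g → M * e % p ≠ 1) : False := by
  obtain ⟨d, hd, hd1, hd2⟩ := prime_degree_index (G := G) p hn (by rw [hG]; exact hp)
  rw [hG] at hd hd2
  obtain ⟨q, hq⟩ := hg
  have hMd : M ∣ d := by
    rw [hq] at hd2
    have h3 : M * g ∣ d * q * g := by rw [mul_assoc d q g, mul_comm q g]; exact hd2
    have h4 : M ∣ d * q := Nat.dvd_of_mul_dvd_mul_right hg0 h3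
    rw [hq, Nat.mul_div_cancel_left _ hg0] at hcop
    exact hcop.dvd_of_dvd_mul_right h4
  obtain ⟨e, rfl⟩ := hMd
  have he : e ∣ g := Nat.dvd_of_mul_dvd_mul_left hM hd
  exact hall e (Finset.mem_range.mpr (by have := Nat.le_of_dvd hg0 he; omega)) he hd1

theorem sign_of_involution {t : Perm α} (ht : t * t = 1) (h6 : t.support.card = 6) : Perm.sign t = -1 := by
  have h2 : ∀ c ∈ t.cycleType, c = 2 := by
    intro c hc
    have h1 := Perm.dvd_of_mem_cycleType hc
    have h3 := Perm.two_le_of_mem_cycleType hc
    have : orderOf t ∣ 2 := orderOf_dvd_of_pow_eq_one (by rw [pow_two]; exact ht)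
    exact le_antisymm (Nat.le_of_dvd two_pos (h1.trans this)) h3
  have hsum := Perm.sum_cycleType t
  rw [Multiset.eq_replicate_card.mpr h2, Multiset.sum_replicate, h6, smul_eq_mul] at hsum
  rw [Perm.sign_of_cycleType, Perm.sum_cycleType, h6, show Multiset.card t.cycleType = 3 by omega]
  norm_num

/-- A 3-homogeneous group of degree 6 and order 60 cannot exist. -/
theorem no_60 (hn : Fintype.card α = 6) (h2 : MT G 2) (hh : Hom G 3) (hG : Nat.card G = 60)
    (h1 : ∀ s : Finset α, s.card = 3 → ∀ g ∈ fixer G s, g = 1) : False := by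
  classical
  obtain ⟨a⟩ := Fintype.card_pos_iff.mp (by omega : 0 < Fintype.card α)
  set H := univ.filter (fun g : Perm α => g ∈ fixer G {a}) with hH
  have hfix : Nat.card (fixer G {a}) = 10 := by
    have := card_group (G := G) (m := 1) (by omega) (h2.mono (by omega)) (card_singleton a)
    rw [hG, hn, Nat.choose_one_right, Nat.factorial_one] at this
    omega
  have hHc : H.card = 10 := by rw [← hfix, Nat.card_eq_fintype_card, Fintype.card_subtype]
  haveI := Fact.mk Nat.prime_two
  obtain ⟨i, hi⟩ := exists_prime_orderOf_dvd_card' (G := fixer G {a}) 2 (by rw [hfix]; norm_num)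
  have hia : (i : Perm α) a = a := i.2.2 a (mem_singleton_self a)
  obtain ⟨b, hb⟩ : ∃ b, (i : Perm α) b ≠ b := by
    by_contra h; push Not at h
    have : i = 1 := Subtype.ext (Equiv.ext h)
    rw [this, orderOf_one] at hi; norm_num at hi
  have hii : ∀ z, (i : Perm α) ((i : Perm α) z) = z := fun z => by
    have h3 := pow_orderOf_eq_one i
    rw [hi, pow_two] at h3
    exact congrArg (fun q : fixer G {a} => (q : Perm α) z) h3
  have hba : b ≠ a := fun e => hb (by rw [e]; exact hia)
  set c := (i : Perm α) b with hc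
  have hca : c ≠ a := fun e => hba ((i : Perm α).injective (e.trans hia.symm))
  -- transitivity of set stabilisers of triples
  have htriple : ∀ T : Finset α, T.card = 3 → ∀ w ∈ T, ∀ v ∈ T, ∃ g ∈ G, T.image g = T ∧ g w = v := by
    intro T hT w hw v hv
    haveI := Fact.mk Nat.prime_three
    let W : Subgroup (Perm α) :=
      { carrier := {g | g ∈ G ∧ T.image g = T}
        one_mem' := ⟨G.one_mem, by simp⟩
        mul_mem' := fun {x y} hx hy => ⟨G.mul_mem hx.1 hy.1, by
          rw [Perm.coe_mul, ← image_image, hy.2, hx.2]⟩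
        inv_mem' := fun {x} hx => ⟨G.inv_mem hx.1, by
          conv_lhs => rw [← hx.2]
          rw [image_image, ← Perm.coe_mul, inv_mul_cancel, Perm.coe_one, image_id]⟩ }
    have hW : 3 ∣ Nat.card W := by
      have hfilt : Nat.card W = (univ.filter (fun g : Perm α => g ∈ G ∧ T.image g = T)).card := by
        rw [Nat.card_eq_fintype_card]
        refine Fintype.card_of_subtype _ fun x => ?_
        simp only [mem_filter, mem_univ, true_and]
        rfl
      have hc := card_eq_sum_card_image (fun g : Perm α => T.image g) (univ.filter (fun g : Perm α => g ∈ G))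
      have himg : (univ.filter (fun g : Perm α => g ∈ G)).image (fun g : Perm α => T.image g) =
          powersetCard 3 (univ : Finset α) := by
        ext t
        simp only [mem_image, mem_filter, mem_univ, true_and, mem_powersetCard, subset_univ]
        constructor
        · rintro ⟨g, -, rfl⟩; rw [card_image_of_injective _ g.injective, hT]
        · intro ht
          obtain ⟨g, hg, hgt⟩ := hh T t hT ht
          exact ⟨g, hg, hgt⟩
      have hfib : ∀ t ∈ powersetCard 3 (univ : Finset α),
          ((univ.filter (fun g : Perm α => g ∈ G)).filter fun g : Perm α => T.image g = t).card = Nat.card W := by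
        intro t ht
        obtain ⟨g, hg, hgt⟩ := hh T t hT (mem_powersetCard.mp ht).2
        rw [hfilt]
        refine card_bij (fun x _ => g⁻¹ * x) ?_ (fun x _ y _ e => mul_left_cancel e) ?_
        · intro x hx
          simp only [mem_filter, mem_univ, true_and] at hx ⊢
          refine ⟨G.mul_mem (G.inv_mem hg) hx.1, ?_⟩
          rw [Perm.coe_mul, ← image_image, hx.2, ← hgt, image_image, ← Perm.coe_mul, inv_mul_cancel,
            Perm.coe_one, image_id]
        · intro x hx
          simp only [mem_filter, mem_univ, true_and] at hx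
          refine ⟨g * x, ?_, by simp⟩
          simp only [mem_filter, mem_univ, true_and]
          exact ⟨G.mul_mem hg hx.1, by rw [Perm.coe_mul, ← image_image, hx.2, hgt]⟩
      rw [himg, sum_congr rfl hfib, sum_const, card_powersetCard, card_univ, hn, smul_eq_mul,
        ← Fintype.card_subtype, ← Nat.card_eq_fintype_card] at hc
      rw [show Nat.card {x // x ∈ G} = 60 from hG] at hc
      have : Nat.choose 6 3 = 20 := by decide
      rw [this] at hc
      exact ⟨1, by omega⟩
    obtain ⟨h, hh3⟩ := exists_prime_orderOf_dvd_card' (G := W) 3 hW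
    have hp3 : ∀ z, (h : Perm α) ((h : Perm α) ((h : Perm α) z)) = z := fun z => by
      have h3 := pow_orderOf_eq_one h
      rw [hh3, pow_succ, pow_two] at h3
      exact congrArg (fun q : W => (q : Perm α) z) h3
    have hmem : ∀ z ∈ T, (h : Perm α) z ∈ T := fun z hz => (image_mem_iff h.2.2).mpr hz
    have hmv : ∀ z ∈ T, (h : Perm α) z ≠ z := by
      intro z hz e
      have hT' : ∀ y ∈ T, (h : Perm α) y = y := by
        intro y hy
        by_contra hne
        have hyz : y ≠ z := fun e' => hne (e' ▸ e)
        have hyz' : (h : Perm α) y ≠ z := fun e' => hyz ((h : Perm α).injective (e'.trans e.symm))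
        have hT3 : ({z, y, (h : Perm α) y} : Finset α) = T := eq_of_subset_of_card_le
          (by simp [insert_subset_iff, hz, hy, hmem y hy])
          (by rw [hT, card_insert_of_notMem (by simp [hyz.symm, hyz'.symm]), card_pair (Ne.symm hne)])
        have h5 := hmem _ (hmem y hy)
        rw [← hT3] at h5
        simp only [mem_insert, mem_singleton] at h5
        rcases h5 with h5 | h5 | h5
        · exact hyz' ((h : Perm α).injective (h5.trans e.symm))
        · have := hp3 y; rw [h5] at this; exact hne this
        · exact hne ((h : Perm α).injective h5)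
      have := h1 T hT h ⟨h.2.1, hT'⟩
      have h6 : h = 1 := Subtype.ext this
      rw [h6, orderOf_one] at hh3; norm_num at hh3
    have hcover : ({w, (h : Perm α) w, (h : Perm α) ((h : Perm α) w)} : Finset α) = T := by
      refine eq_of_subset_of_card_le (by simp [insert_subset_iff, hw, hmem w hw, hmem _ (hmem w hw)]) ?_
      have e1 := hmv w hw
      have e2 := hmv _ (hmem w hw)
      have e3 : (h : Perm α) ((h : Perm α) w) ≠ w := fun e => by
        have := hp3 w; rw [e] at this; exact e1 this
      rw [hT, card_insert_of_notMem (by simp [e1.symm, e3.symm]), card_pair e2.symm]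
    rw [← hcover, mem_insert, mem_insert, mem_singleton] at hv
    rcases hv with rfl | rfl | rfl
    · exact ⟨1, G.one_mem, by simp, rfl⟩
    · exact ⟨h, h.2.1, h.2.2, rfl⟩
    · exact ⟨h * h, G.mul_mem h.2.1 h.2.1, by rw [Perm.coe_mul, ← image_image, h.2.2, h.2.2], rfl⟩
  have hsurj : powersetCard 2 ((univ : Finset α).erase a) ⊆ H.image (fun g : Perm α => ({b, c} : Finset α).image g) := by
    intro p hp
    rw [mem_powersetCard] at hp
    have hap : a ∉ p := fun h => by simpa using hp.1 h
    have hab : a ∉ ({b, c} : Finset α) := by simp [hba.symm, hca.symm]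
    have hbc : ({b, c} : Finset α).card = 2 := card_pair (Ne.symm hb)
    obtain ⟨g, hg, hgi⟩ := hh (insert a {b, c}) (insert a p) (by rw [card_insert_of_notMem hab, hbc])
      (by rw [card_insert_of_notMem hap, hp.2])
    obtain ⟨f, hf, hfi, hfa⟩ := htriple (insert a p) (by rw [card_insert_of_notMem hap, hp.2]) (g a)
      ((image_mem_iff hgi).mpr (mem_insert_self _ _)) a (mem_insert_self _ _)
    refine mem_image.mpr ⟨f * g, ?_, ?_⟩
    · simp only [hH, mem_filter, mem_univ, true_and]
      exact ⟨G.mul_mem hf hg, fun z hz => by rw [mem_singleton.mp hz]; exact hfa⟩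
    · refine eq_of_subset_of_card_le ?_ (by rw [card_image_of_injective _ (Equiv.injective _), hp.2, hbc])
      intro z hz
      obtain ⟨w, hw, rfl⟩ := mem_image.mp hz
      have : (f * g) w ∈ insert a p := by
        rw [Perm.mul_apply]
        exact (image_mem_iff hfi).mpr ((image_mem_iff hgi).mpr (mem_insert_of_mem hw))
      refine (mem_insert.mp this).resolve_left fun e => hab ?_
      rw [← (f * g).injective (e.trans hfa.symm)]; exact hw
  have hi1 : (i : Perm α) ≠ 1 := fun h => hb (by rw [hc, h]; rfl)
  have hinj : (H.image (fun g : Perm α => ({b, c} : Finset α).image g)).card < H.card := by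
    refine lt_of_le_of_ne card_image_le fun e => hi1 ?_
    rw [card_image_iff] at e
    refine e (by simp [hH, i.2]) (by simp [hH, (fixer G {a}).one_mem]) ?_
    show ({b, c} : Finset α).image (i : Perm α) = ({b, c} : Finset α).image (1 : Perm α)
    rw [image_insert, image_singleton, image_insert, image_singleton, ← hc]
    show ({c, (i : Perm α) c} : Finset α) = {b, c}
    rw [hc, hii, pair_comm]
  have := card_le_card hsurj
  rw [card_powersetCard, card_erase_of_mem (mem_univ a), card_univ, hn] at this
  have : Nat.choose (6 - 1) 2 = 10 := by decide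
  omega

/-- A sharply 3-transitive group of degree 7 cannot exist. -/
theorem no_210 (hn : Fintype.card α = 7) (h3 : MT G 3) (hG : Nat.card G = 210)
    (h1 : ∀ s : Finset α, s.card = 3 → ∀ g ∈ fixer G s, g = 1) : False := by
  classical
  obtain ⟨a⟩ := Fintype.card_pos_iff.mp (by omega : 0 < Fintype.card α)
  have hfix : Nat.card (fixer G {a}) = 30 := by
    have := card_group (G := G) (m := 1) (by omega) (h3.mono (by omega)) (card_singleton a)
    rw [hG, hn, Nat.choose_one_right, Nat.factorial_one] at this
    omega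
  haveI := Fact.mk Nat.prime_two
  obtain ⟨i, hi⟩ := exists_prime_orderOf_dvd_card' (G := fixer G {a}) 2 (by rw [hfix]; norm_num)
  have hi2 : (i : Perm α) * i = 1 := by
    have h3 := pow_orderOf_eq_one i
    rw [hi, pow_two] at h3
    exact congrArg Subtype.val h3
  have hne : (i : Perm α) ≠ 1 := fun h => by
    have h' : i = 1 := Subtype.ext h
    rw [h', orderOf_one] at hi
    norm_num at hi
  have hfx : (fx (i : Perm α)).card ≤ 2 := by
    by_contra hgt
    obtain ⟨s, hs, hsc⟩ := exists_subset_card_eq (s := fx (i : Perm α)) (n := 3) (by omega)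
    exact hne (h1 s hsc i ⟨i.2.1, fun x hx => mem_fx.mp (hs hx)⟩)
  have hodd : Odd (fx (i : Perm α)).card := by
    rw [← Nat.not_even_iff_odd]
    intro hev
    have hoddc : Odd (fx (i : Perm α))ᶜ.card := by
      rw [card_compl, hn]
      obtain ⟨r, hr⟩ := hev
      exact ⟨3 - r, by omega⟩
    obtain ⟨z, hz, hzz⟩ := exists_fixed_of_odd _ (i : Perm α) hoddc (fun z hz => by
      rw [mem_compl, mem_fx] at hz ⊢
      exact fun h => hz ((i : Perm α).injective h)) (fun z _ => by
      rw [← Perm.mul_apply, hi2, Perm.one_apply])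
    exact (mem_compl.mp hz) (mem_fx.mpr hzz)
  have hsup : (i : Perm α).support.card = 6 := by
    have : (i : Perm α).support = (fx (i : Perm α))ᶜ := by ext z; simp [mem_fx]
    rw [this, card_compl, hn]
    obtain ⟨r, hr⟩ := hodd
    omega
  set E := (Perm.sign.comp (fixer G {a}).subtype).ker with hE
  have hEodd : ¬ 2 ∣ Nat.card E := by
    have h := E.card_mul_index
    have hix : E.index = 2 := by
      rw [hE, Subgroup.index_ker]
      have hsurj : Function.Surjective (Perm.sign.comp (fixer G {a}).subtype) := by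
        intro u
        rcases Int.units_eq_one_or u with rfl | rfl
        · exact ⟨1, map_one _⟩
        · exact ⟨i, sign_of_involution hi2 hsup⟩
      rw [MonoidHom.range_eq_top.mpr hsurj, Subgroup.card_top, Nat.card_eq_fintype_card]
      rfl
    rw [hix, hfix] at h
    omega
  obtain ⟨b, hb⟩ : ∃ b, b ≠ a := Fintype.exists_ne_of_one_lt_card (by omega) a
  have hEne : ∃ e ∈ E, (e : Perm α) b ≠ b := by
    have hE1 : Nat.card E ≠ 1 := by
      have h := E.card_mul_index
      intro h1'
      have hix : E.index ≤ 2 := by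
        rw [hE, Subgroup.index_ker]
        exact (Subgroup.card_le_card_group _).trans (by rw [Nat.card_eq_fintype_card]; rfl)
      rw [h1', hfix] at h; omega
    obtain ⟨e, he, he1⟩ := E.bot_or_exists_ne_one.resolve_left fun h => hE1 (by rw [h, Subgroup.card_bot])
    obtain ⟨z, hz⟩ : ∃ z, (e : Perm α) z ≠ z := by
      by_contra h; push Not at h; exact he1 (Subtype.ext (Equiv.ext h))
    have hza : z ≠ a := fun h => hz (h ▸ e.2.2 a (mem_singleton_self a))
    obtain ⟨g, hg, hgx⟩ := h3 {a, b} (Function.update id b z) (card_le_two.trans (by omega)) (by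
      rw [pair_comm]
      exact injOn_update (Set.injOn_id _) (by simpa using hb) (by simp [hza.symm]))
    have hga : g a = a := by rw [hgx a (by simp), Function.update_of_ne (Ne.symm hb)]; rfl
    have hgb : g b = z := by rw [hgx b (by simp), Function.update_self]
    let g' : fixer G {a} := ⟨g, hg, fun w hw => by rw [mem_singleton.mp hw]; exact hga⟩
    refine ⟨g'⁻¹ * e * g'⁻¹⁻¹, (inferInstance : E.Normal).conj_mem e he _, ?_⟩
    show g⁻¹ ((e : Perm α) ((g⁻¹)⁻¹ b)) ≠ b
    rw [inv_inv, hgb, Ne, Perm.inv_eq_iff_eq, hgb]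
    exact hz
  obtain ⟨e, he, heb⟩ := hEne
  let Em : Subgroup (Perm α) := E.map (fixer G {a}).subtype
  have horb : MulAction.orbit Em b = ↑((univ : Finset α).erase a) := by
    ext z
    simp only [coe_erase, coe_univ, Set.mem_sdiff, Set.mem_univ, Set.mem_singleton_iff, true_and]
    constructor
    · rintro ⟨⟨g, w, hw, rfl⟩, rfl⟩ h
      have hwa : (w : Perm α) a = a := w.2.2 a (mem_singleton_self a)
      exact hb ((w : Perm α).injective ((show (w : Perm α) b = a from h).trans hwa.symm))
    · intro hz
      rcases eq_or_ne z b with rfl | hzb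
      · exact MulAction.mem_orbit_self _
      have hea : (e : Perm α) a = a := e.2.2 a (mem_singleton_self a)
      have heba : (e : Perm α) b ≠ a := fun h => hb ((e : Perm α).injective (h.trans hea.symm))
      obtain ⟨g, hg, hgx⟩ := h3 (insert ((e : Perm α) b) {a, b}) (Function.update id ((e : Perm α) b) z)
        (by rw [card_insert_of_notMem (by simp [heb, heba]), card_pair (Ne.symm hb)]) (
        injOn_update (Set.injOn_id _) (by simp [heb, heba]) (by simp [Ne.symm hz, Ne.symm hzb]))
      have hga : g a = a := by rw [hgx a (by simp), Function.update_of_ne heba.symm]; rfl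
      have hgb : g b = b := by rw [hgx b (by simp), Function.update_of_ne heb.symm]; rfl
      let g' : fixer G {a} := ⟨g, hg, fun w hw => by rw [mem_singleton.mp hw]; exact hga⟩
      refine ⟨⟨g * e * g⁻¹, g' * e * g'⁻¹, (inferInstance : E.Normal).conj_mem e he g', rfl⟩, ?_⟩
      show g ((e : Perm α) (g⁻¹ b)) = z
      rw [show g⁻¹ b = b by rw [Perm.inv_eq_iff_eq, hgb], hgx _ (mem_insert_self _ _), Function.update_self]
  have h6 : 6 ∣ Nat.card E := by
    rw [← Subgroup.card_map_of_injective (K := E) (fixer G {a}).subtype_injective]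
    refine ⟨Nat.card (MulAction.stabilizer Em b), ?_⟩
    rw [← Nat.card_congr (MulAction.orbitProdStabilizerEquivGroup Em b), Nat.card_prod, horb,
      Nat.card_eq_card_toFinset, Finset.toFinset_coe, card_erase_of_mem (mem_univ a), card_univ, hn]
  exact hEodd ((by norm_num : 2 ∣ 6).trans h6)

/-- A group of degree 9 and order 1008 cannot be 3-transitive. -/
theorem no_1008 (hn : Fintype.card α = 9) (h3 : MT G 3) (hG : Nat.card G = 1008)
    (h1 : ∀ s : Finset α, s.card = 4 → ∀ g ∈ fixer G s, g = 1) : False := by
  classical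
  obtain ⟨T, -, hT⟩ := exists_subset_card_eq (s := (univ : Finset α)) (n := 3) (by simp [hn])
  obtain ⟨a, b, c, hab, hac, hbc, rfl⟩ := card_eq_three.mp hT
  have hab2 : ({a, b} : Finset α).card = 2 := card_pair hab
  have hK : Nat.card (fixer G {a, b}) = 14 := by
    have := card_group (G := G) (m := 2) (by omega) (h3.mono (by omega)) hab2
    rw [hG, hn, show Nat.choose 9 2 = 36 by decide, show Nat.factorial 2 = 2 by decide] at this
    omega
  have hX : Nat.card (fixer G {a, b, c}) = 2 := by
    have := card_group (G := G) (m := 3) (by omega) h3 hT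
    rw [hG, hn, show Nat.choose 9 3 = 84 by decide, show Nat.factorial 3 = 6 by decide] at this
    omega
  haveI := Fact.mk Nat.prime_two
  haveI : Fact (Nat.Prime 7) := ⟨by norm_num⟩
  obtain ⟨i, hi⟩ := exists_prime_orderOf_dvd_card' (G := fixer G {a, b, c}) 2 (by rw [hX])
  obtain ⟨u, hu⟩ := exists_prime_orderOf_dvd_card' (G := fixer G {a, b}) 7 (by rw [hK]; norm_num)
  have hu7 : orderOf (u : Perm α) = 7 := by rw [Subgroup.orderOf_coe]; exact hu
  have hua : (u : Perm α) a = a := u.2.2 a (by simp)
  have hub : (u : Perm α) b = b := u.2.2 b (by simp)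
  have huc : ∀ z, z ≠ a → z ≠ b → (u : Perm α) z ≠ z := by
    intro z hza hzb h
    have hm : (u : Perm α) ∈ fixer G {z, a, b} := ⟨u.2.1, by simp [hua, hub, h]⟩
    have hz3 : ({z, a, b} : Finset α).card = 3 := by
      rw [card_insert_of_notMem (by simp [hza, hzb]), hab2]
    have h2 : Nat.card (fixer G {z, a, b}) = 2 := by
      have := card_group (G := G) (m := 3) (by omega) h3 hz3
      rw [hG, hn, show Nat.choose 9 3 = 84 by decide, show Nat.factorial 3 = 6 by decide] at this
      omega
    have := Subgroup.orderOf_dvd_natCard (fixer G {z, a, b}) hm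
    rw [hu7, h2] at this
    norm_num at this
  have hper : ∀ m : ℕ, ((u : Perm α) ^ m) c = c → 7 ∣ m := by
    intro m hm
    by_contra h7
    have hcop : Nat.Coprime m 7 := Nat.Coprime.symm ((Fact.out : Nat.Prime 7).coprime_iff_not_dvd.mpr h7)
    obtain ⟨r, hr⟩ := exists_pow_eq_self_of_coprime (x := (u : Perm α)) (hu7.symm ▸ hcop)
    have := pow_apply_of_fixed hm r
    rw [hr] at this
    exact huc c hac.symm hbc.symm this
  have hcover : ∀ z, z ≠ a → z ≠ b → ∃ m : ℕ, ((u : Perm α) ^ m) c = z := by
    intro z hza hzb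
    have hsub : (Finset.range 7).image (fun m => ((u : Perm α) ^ m) c) ⊆
        ((univ : Finset α).erase a).erase b := by
      intro w hw
      obtain ⟨m, -, rfl⟩ := mem_image.mp hw
      simp only [mem_erase, mem_univ, and_true]
      exact ⟨fun h => hbc ((((u : Perm α) ^ m)).injective (h.trans (pow_apply_of_fixed hub m).symm)).symm,
        fun h => hac ((((u : Perm α) ^ m)).injective (h.trans (pow_apply_of_fixed hua m).symm)).symm⟩
    have hinj : Set.InjOn (fun m => ((u : Perm α) ^ m) c) ↑(Finset.range 7) := by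
      intro p hp q hq h
      simp only [coe_range, Set.mem_Iio] at hp hq
      wlog hpq : p ≤ q generalizing p q
      · exact (this h.symm hq hp (by omega)).symm
      have h' : ((u : Perm α) ^ p) c = ((u : Perm α) ^ p) (((u : Perm α) ^ (q - p)) c) := by
        rw [← Perm.mul_apply, ← pow_add, Nat.add_sub_cancel' hpq]; exact h
      have := hper _ (((u : Perm α) ^ p).injective h').symm
      omega
    have heq := eq_of_subset_of_card_le hsub (by
      rw [card_image_of_injOn hinj, card_range, card_erase_of_mem (mem_erase.mpr ⟨hab.symm, mem_univ b⟩),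
        card_erase_of_mem (mem_univ a), card_univ, hn])
    have hzm : z ∈ (Finset.range 7).image (fun m => ((u : Perm α) ^ m) c) := by
      rw [heq]; simp [hza, hzb]
    obtain ⟨m, -, hm⟩ := mem_image.mp hzm
    exact ⟨m, hm⟩
  have hfixall : ∀ s : Perm α, s * u = u * s → s c = c → ∀ z, z ≠ a → z ≠ b → s z = z := by
    intro s hs hsc z hza hzb
    obtain ⟨m, rfl⟩ := hcover z hza hzb
    rw [← Perm.mul_apply, (Commute.pow_right (show Commute s u from hs) m).eq, Perm.mul_apply, hsc]
  have h14 : ∀ w ∈ fixer G {a, b}, orderOf w = 7 → w ∈ Subgroup.zpowers (u : Perm α) := by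
    intro w hw hw7
    set Z := (Subgroup.zpowers (u : Perm α)).subgroupOf (fixer G {a, b}) with hZ
    have hZ2 : Z.index = 2 := by
      have h := Z.card_mul_index
      have hZc : Nat.card Z = 7 := by
        rw [hZ, Nat.card_congr (Subgroup.subgroupOfEquivOfLe (Subgroup.zpowers_le.mpr u.2)).toEquiv,
          Nat.card_zpowers, hu7]
      rw [hK, hZc] at h
      omega
    have hsq := Subgroup.sq_mem_of_index_two hZ2 (⟨w, hw⟩ : fixer G {a, b})
    rw [hZ, Subgroup.mem_subgroupOf] at hsq
    have h4 : ((w ^ 2) ^ 4 : Perm α) ∈ Subgroup.zpowers (u : Perm α) := Subgroup.pow_mem _ hsq 4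
    rwa [← pow_mul, show 2 * 4 = 7 + 1 by norm_num, pow_succ, ← hw7, pow_orderOf_eq_one, one_mul] at h4
  have hconj : ∀ g ∈ G, ((g a = a ∧ g b = b) ∨ (g a = b ∧ g b = a)) →
      ∃ r : ℕ, g * u * g⁻¹ = (u : Perm α) ^ r := by
    intro g hg hgab
    have hmem : g * u * g⁻¹ ∈ fixer G {a, b} := by
      refine ⟨G.mul_mem (G.mul_mem hg u.2.1) (G.inv_mem hg), fun z hz => ?_⟩
      have hz' : ∃ y, (y = a ∨ y = b) ∧ g y = z := by
        simp only [mem_insert, mem_singleton] at hz
        rcases hgab with ⟨p, q⟩ | ⟨p, q⟩ <;> rcases hz with rfl | rfl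
        exacts [⟨z, Or.inl rfl, p⟩, ⟨z, Or.inr rfl, q⟩, ⟨b, Or.inr rfl, q⟩, ⟨a, Or.inl rfl, p⟩]
      obtain ⟨y, hy, rfl⟩ := hz'
      rcases hy with rfl | rfl <;> simp [hua, hub]
    have ho : orderOf (g * u * g⁻¹) = 7 := by
      rw [← MulAut.conj_apply]
      exact ((MulAut.conj g).orderOf_eq _).trans hu7
    have := h14 _ hmem ho
    rw [mem_zpowers_iff_mem_range_orderOf, mem_image] at this
    obtain ⟨r, -, hr⟩ := this
    exact ⟨r, hr.symm⟩
  have hmod : ∀ r s : ℕ, (u : Perm α) ^ r = (u : Perm α) ^ s → r % 7 = s % 7 := fun r s h => by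
    rw [pow_eq_pow_iff_modEq, hu7] at h; exact h
  have hpow : ∀ (g : Perm α) (r : ℕ), g * u * g⁻¹ = (u : Perm α) ^ r →
      g * g * u * (g * g)⁻¹ = (u : Perm α) ^ (r * r) := by
    intro g r h
    calc g * g * u * (g * g)⁻¹ = g * (g * u * g⁻¹) * g⁻¹ := by simp [mul_assoc]
      _ = (g * u * g⁻¹) ^ r := by rw [conj_pow, h]
      _ = (u : Perm α) ^ (r * r) := by rw [h, pow_mul]
  have hia : (i : Perm α) a = a := i.2.2 a (by simp)
  have hib : (i : Perm α) b = b := i.2.2 b (by simp)
  have hic : (i : Perm α) c = c := i.2.2 c (by simp)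
  have hii : (i : Perm α) * i = 1 := by
    have h3 := pow_orderOf_eq_one i
    rw [hi, pow_two] at h3
    exact congrArg Subtype.val h3
  have hine : (i : Perm α) ≠ 1 := fun h => by
    have h' : i = 1 := Subtype.ext h
    rw [h', orderOf_one] at hi
    norm_num at hi
  obtain ⟨r, hr⟩ := hconj i i.2.1 (Or.inl ⟨hia, hib⟩)
  have hr6 : r % 7 = 6 := by
    have h2 := hpow _ r hr
    rw [hii, one_mul, inv_one, mul_one] at h2
    have h3 := hmod 1 (r * r) (by rw [pow_one]; exact h2)
    have hne1 : r % 7 ≠ 1 := by
      intro h7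
      refine hine (Equiv.ext fun z => ?_)
      have h4 : (u : Perm α) ^ r = u := by rw [← pow_mod_orderOf, hu7, h7, pow_one]
      rw [h4, mul_inv_eq_iff_eq_mul] at hr
      rcases eq_or_ne z a with rfl | hza
      · exact hia
      rcases eq_or_ne z b with rfl | hzb
      · exact hib
      exact hfixall i hr hic z hza hzb
    rw [Nat.mul_mod] at h3
    have : r % 7 < 7 := Nat.mod_lt _ (by norm_num)
    obtain ⟨v, hv⟩ : ∃ v, r % 7 = v := ⟨_, rfl⟩
    rw [hv] at h3 hne1 this ⊢
    interval_cases v <;> omega
  obtain ⟨g, hg, hgx⟩ := h3 {a, b} (swap a b) (by omega) (Equiv.injective _).injOn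
  have hga : g a = b := by rw [hgx a (by simp), swap_apply_left]
  have hgb : g b = a := by rw [hgx b (by simp), swap_apply_right]
  obtain ⟨q, hq⟩ := hconj g hg (Or.inr ⟨hga, hgb⟩)
  obtain ⟨s, hs, hsa, hsu⟩ : ∃ s ∈ G, s a = b ∧ s * u = u * s := by
    have hgg : g * g ∈ fixer G {a, b} := ⟨G.mul_mem hg hg, fun z hz => by
      simp only [mem_insert, mem_singleton] at hz
      rcases hz with rfl | rfl <;> simp [hga, hgb]⟩
    -- the square acts as `1` or `i`
    have hsqval : (q * q) % 7 = 1 ∨ (q * q) % 7 = 6 := by
      set m := g * g with hm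
      have hq2 := hpow g q hq
      obtain ⟨l, hl⟩ := hcover (m c) (fun h => hac (m.injective (h.trans (hgg.2 a (by simp)).symm)).symm)
        (fun h => hbc (m.injective (h.trans (hgg.2 b (by simp)).symm)).symm)
      set m' := ((u : Perm α) ^ l)⁻¹ * m with hm'
      have hm'F : m' ∈ fixer G {a, b, c} := by
        refine ⟨G.mul_mem (G.inv_mem (G.pow_mem u.2.1 l)) hgg.1, fun z hz => ?_⟩
        rw [hm', Perm.mul_apply, Perm.inv_eq_iff_eq]
        simp only [mem_insert, mem_singleton] at hz
        rcases hz with rfl | rfl | rfl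
        · rw [hgg.2 z (by simp), pow_apply_of_fixed hua]
        · rw [hgg.2 z (by simp), pow_apply_of_fixed hub]
        · exact hl.symm
      have hconjm : m * u * m⁻¹ = m' * u * m'⁻¹ := by
        have e : m = (u : Perm α) ^ l * m' := by rw [hm']; simp
        have hcomm : Commute ((u : Perm α) ^ l) (m' * u * m'⁻¹) := by
          rcases eq_or_ne (m' : Perm α) 1 with h | h
          · rw [h]; simpa using (Commute.refl (u : Perm α)).pow_left l
          · have h' : m' = i := by
              have hc2 : (univ.filter (fun x : fixer G {a, b, c} => x ≠ 1)).card = 1 := by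
                rw [filter_ne', card_erase_of_mem (mem_univ _), card_univ, ← Nat.card_eq_fintype_card, hX]
              have hi' : i ≠ 1 := fun h => hine (congrArg Subtype.val h)
              exact congrArg Subtype.val (card_le_one.mp hc2.le ⟨m', hm'F⟩
                (by simp only [mem_filter, mem_univ, true_and]; exact fun e => h (congrArg Subtype.val e)) i
                (by simp only [mem_filter, mem_univ, true_and]; exact hi'))
            rw [h', hr]
            exact (Commute.refl (u : Perm α)).pow_pow l r
        rw [e, show (u : Perm α) ^ l * m' * u * ((u : Perm α) ^ l * m')⁻¹ =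
          (u : Perm α) ^ l * (m' * u * m'⁻¹) * ((u : Perm α) ^ l)⁻¹ by simp [mul_assoc], hcomm.eq]
        simp
      rcases eq_or_ne (m' : Perm α) 1 with h | h
      · left
        rw [hconjm, h, one_mul, inv_one, mul_one] at hq2
        exact (hmod 1 (q * q) (by rw [pow_one]; exact hq2)).symm
      · right
        have h' : m' = i := by
          have hc2 : (univ.filter (fun x : fixer G {a, b, c} => x ≠ 1)).card = 1 := by
            rw [filter_ne', card_erase_of_mem (mem_univ _), card_univ, ← Nat.card_eq_fintype_card, hX]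
          have hi' : i ≠ 1 := fun h => hine (congrArg Subtype.val h)
          exact congrArg Subtype.val (card_le_one.mp hc2.le ⟨m', hm'F⟩
            (by simp only [mem_filter, mem_univ, true_and]; exact fun e => h (congrArg Subtype.val e)) i
                (by simp only [mem_filter, mem_univ, true_and]; exact hi'))
        rw [hconjm, h', hr] at hq2
        exact (hmod r (q * q) hq2).symm.trans hr6
    have hq16 : q % 7 = 1 ∨ q % 7 = 6 := by
      rw [Nat.mul_mod] at hsqval
      have : q % 7 < 7 := Nat.mod_lt _ (by norm_num)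
      obtain ⟨v, hv⟩ : ∃ v, q % 7 = v := ⟨_, rfl⟩
      rw [hv] at hsqval this ⊢
      interval_cases v <;> omega
    rcases hq16 with h | h
    · refine ⟨g, hg, hga, ?_⟩
      have h4 : (u : Perm α) ^ q = u := by rw [← pow_mod_orderOf, hu7, h, pow_one]
      rw [h4, mul_inv_eq_iff_eq_mul] at hq
      exact hq
    · refine ⟨g * i, G.mul_mem hg i.2.1, by rw [Perm.mul_apply, hia, hga], ?_⟩
      have h4 : g * i * u * (g * i)⁻¹ = u := by
        calc g * i * u * (g * i)⁻¹ = g * ((i : Perm α) * u * (i : Perm α)⁻¹) * g⁻¹ := by simp [mul_assoc]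
          _ = (g * u * g⁻¹) ^ r := by rw [hr, conj_pow]
          _ = (u : Perm α) ^ (q * r) := by rw [hq, pow_mul]
          _ = u := by
            rw [← pow_mod_orderOf, hu7, Nat.mul_mod, h, hr6]
            norm_num
      exact mul_inv_eq_iff_eq_mul.mp h4
  have hsc : s c ≠ b := fun h => hac (s.injective (h.trans hsa.symm)).symm
  have hsc' : s c ≠ a := by
    intro h
    have h5 : (u : Perm α) (s c) = s ((u : Perm α) c) := by
      rw [← Perm.mul_apply, ← hsu, Perm.mul_apply]
    rw [h, hua] at h5
    exact huc c hac.symm hbc.symm (s.injective (h5.symm.trans h.symm))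
  obtain ⟨l, hl⟩ := hcover (s c) hsc' hsc
  set s' := ((u : Perm α) ^ l)⁻¹ * s with hs'
  have hs'c : s' c = c := by rw [hs', Perm.mul_apply, Perm.inv_eq_iff_eq, hl]
  have hs'u : s' * u = u * s' :=
    ((Commute.pow_left (Commute.refl (u : Perm α)) l).inv_left.mul_left hsu).eq
  obtain ⟨S, hS, hSc⟩ := exists_subset_card_eq (s := ((univ : Finset α).erase a).erase b) (n := 4) (by
    rw [card_erase_of_mem (mem_erase.mpr ⟨hab.symm, mem_univ b⟩), card_erase_of_mem (mem_univ a),
      card_univ, hn]; norm_num)
  have h6 := h1 S hSc s' ⟨G.mul_mem (G.inv_mem (G.pow_mem u.2.1 l)) hs, fun z hz => by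
    have := hS hz
    simp only [mem_erase, mem_univ, and_true] at this
    exact hfixall s' hs'u hs'c z this.2 this.1⟩
  have h7 : s' a = b := by
    rw [hs', Perm.mul_apply, hsa, Perm.inv_eq_iff_eq, pow_apply_of_fixed hub]
  rw [h6, Perm.one_apply] at h7
  exact hab h7

end CfsgLib.LW
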