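import Cfsg.Agent.LW.AltSet
import Cfsg.Agent.LW.SmallCases
import Cfsg.Agent.S0744

/-!
The exceptions in the Livingstone–Wagner theorem.
-/

set_option autoImplicit false
set_option linter.unusedSectionVars false
set_option linter.style.haveILetI false
set_option linter.deprecated false

namespace CfsgLib.LW

open Equiv Finset

variable {α : Type*} [Fintype α] [DecidableEq α] {G : Subgroup (Perm α)} {k : ℕ}

theorem mt_top (k : ℕ) : MT (⊤ : Subgroup (Perm α)) k := by
  intro s h _ hinj
  obtain ⟨σ, hσ⟩ := Set.MapsTo.exists_equiv_extend_of_card_eq (α := α) (β := α) (t := univ)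
    (by simp) (f := h) (s := (s : Set α)) (fun x _ => by simp) hinj
  exact ⟨σ.trans (Equiv.subtypeUnivEquiv mem_univ), trivial, fun x hx => by simp [hσ x hx]⟩

theorem arith4 : ∀ m ∈ List.range 12, ∀ x ∈ List.range 8,
    ¬ ((m + 2) * (m + 1) ∣ 24 * x ∧ m + 2 ∣ 6 * x ∧ x ∣ m + 2 ∧ x ≠ m + 2 ∧ 0 < x ∧ 1 ≤ m) ∨
      (m, x) ∈ [(1, 1), (2, 2), (7, 3)] := by
  decide +kernel

theorem arith5 : ∀ m ∈ List.range 60, ∀ x ∈ List.range 32,
    ¬ ((m + 2) * (m + 1) ∣ 120 * x ∧ m + 2 ∣ 24 * x ∧ x ∣ m + 2 ∧ x ≠ m + 2 ∧ 0 < x ∧ 1 ≤ m) ∨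
      (m, x) ∈ [(1, 1), (2, 1), (2, 2), (4, 1), (4, 2), (4, 3), (7, 3), (14, 2), (14, 4), (14, 8), (19, 7)] := by
  decide +kernel

theorem bound {m x c : ℕ} (h : (m + 2) * (m + 1) ∣ c * x) (hd : x ∣ m + 2) (hne : x ≠ m + 2) (hx : 0 < x)
    (hc : 0 < c) :
    2 * x ≤ m + 2 ∧ 2 * (m + 1) ≤ c := by
  obtain ⟨j, hj⟩ := hd
  have hj2 : 2 ≤ j := by
    rcases j with _ | _ | j
    · omega
    · omega
    · omega
  have h1 : 2 * x ≤ m + 2 := by rw [hj]; nlinarith
  refine ⟨h1, ?_⟩
  have h3 := Nat.le_of_dvd (Nat.mul_pos hc hx) h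
  have h4 : 2 * (c * x) ≤ c * (m + 2) := by nlinarith
  have h5 : (m + 2) * (2 * (m + 1)) ≤ (m + 2) * c := by nlinarith
  exact Nat.le_of_mul_le_mul_left h5 (by omega)

theorem classify (hk : 3 ≤ k) (hkn : k ≤ Fintype.card α) (ht : MT G (k - 2)) (hnt : ¬ MT G (k - 1))
    (hh1 : Hom G (k - 1)) (hh : Hom G k) :
    (k = Fintype.card α ∧ G = alternatingGroup α) ∨ (Fintype.card α = 5 ∧ k = 4 ∧ Nat.card G = 20) ∨
      (Fintype.card α = 6 ∧ k = 5 ∧ Nat.card G = 120) ∨
      (Fintype.card α = 9 ∧ k = 5 ∧ (Nat.card G = 504 ∨ Nat.card G = 1512)) := by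
  classical
  rcases eq_or_lt_of_le hkn with hkn' | hkn'
  · refine Or.inl ⟨hkn', ?_⟩
    have hA : alternatingGroup α ≤ G :=
      IsMultiplyPretransitive.alternatingGroup_le _ G (by
        rw [Nat.card_eq_fintype_card, ← hkn']; exact imt_of ht)
    refine le_antisymm (fun g hg => ?_) hA
    by_contra hodd
    refine hnt ?_
    have htop : G = ⊤ := by
      rw [Subgroup.eq_top_iff']
      intro σ
      rcases Int.units_eq_one_or (Perm.sign σ) with h | h
      · exact hA (Perm.mem_alternatingGroup.mpr h)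
      · have hgs : Perm.sign g = -1 :=
          (Int.units_eq_one_or _).resolve_left fun h' => hodd (Perm.mem_alternatingGroup.mpr h')
        have : σ * g⁻¹ ∈ G := hA (Perm.mem_alternatingGroup.mpr (by simp [h, hgs]))
        simpa using G.mul_mem this hg
    rw [htop]
    exact mt_top _
  -- the stabilisers of `k - 1` points are trivial
  obtain ⟨s₁, -, hs₁⟩ := exists_subset_card_eq (s := (univ : Finset α)) (n := k - 1) (by rw [card_univ]; omega)
  obtain ⟨s₂, -, hs₂⟩ := exists_subset_card_eq (s := (univ : Finset α)) (n := k) (by rw [card_univ]; omega)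
  have hone : ∀ s : Finset α, k - 1 ≤ s.card → ∀ g ∈ fixer G s, g = 1 := by
    have hl : ∀ s : Finset α, s.card = k - 1 → Nat.card (fixer G s) = Nat.card (fixer G s₁) := by
      intro s hs
      obtain ⟨g, hg, hgi⟩ := hh1 s s₁ hs hs₁
      exact card_fixer_eq hg hgi
    have hm : ∀ s : Finset α, s.card = k → Nat.card (fixer G s) = Nat.card (fixer G s₂) := by
      intro s hs
      obtain ⟨g, hg, hgi⟩ := hh s s₂ hs hs₂
      exact card_fixer_eq hg hgi
    have h1 : Nat.card (fixer G s₁) = 1 := by
      have hpos : 0 < Nat.card (fixer G s₁) := Nat.card_pos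
      by_contra hne
      exact hnt (mt_of (by omega) (Cfsg.Agent.S0744.result G (k := k) (by omega) hkn
        (Nat.card (fixer G s₁)) (Nat.card (fixer G s₂)) (by omega)
        (fun s hs => by rw [card_fixingSubgroup]; exact hl s hs)
        (fun s hs => by rw [card_fixingSubgroup]; exact hm s hs)))
    intro s hs g hg
    obtain ⟨t, hts, htc⟩ := exists_subset_card_eq (s := s) (n := k - 1) hs
    have hbot : fixer G t = ⊥ := Subgroup.card_eq_one.mp ((hl t htc).trans h1)
    exact Subgroup.mem_bot.mp (hbot ▸ (⟨hg.1, fun x hx => hg.2 x (hts hx)⟩ : g ∈ fixer G t))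
  have hnosym : ∀ Q : Finset α, Q.card = k - 1 → ¬ SymInd G Q := fun Q hQ hS =>
    hnt (mt_of_symInd (by omega) hh1 hQ hS)
  rcases (by omega : 6 ≤ k ∨ k = 3 ∨ k = 4 ∨ k = 5) with hk6 | rfl | hk45
  · exfalso
    obtain ⟨Q₀, hQ₀, hA₀⟩ := exists_altInd (k := k - 2) (by omega) (by omega) ht
    have hI : InvSmall G (k - 2) := by
      intro t htG ht2 ht1
      by_contra hgt
      obtain ⟨Γ, hΓ, hΓc⟩ := exists_subset_card_eq (s := fx t) (n := k - 3) (by omega)
      obtain ⟨a, ha⟩ : ∃ a, t a ≠ a := by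
        by_contra h; push Not at h; exact ht1 (Equiv.ext h)
      have ha' : a ∉ Γ := fun h => ha (mem_fx.mp (hΓ h))
      have hta : t a ∉ Γ := fun h => ha (t.injective (mem_fx.mp (hΓ h)))
      have hQ : (insert a (insert (t a) Γ)).card = k - 1 := by
        rw [card_insert_of_notMem (by simp [ha', Ne.symm ha]), card_insert_of_notMem hta]; omega
      obtain ⟨g, hg, hgi⟩ := hh1 Q₀ _ (by omega) hQ
      refine hnosym _ hQ (symInd_of_alt (altInd_conj hA₀ hg hgi) (a := a) (b := t a) (by simp) (by simp)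
        (Ne.symm ha) htG fun x hx => ?_)
      simp only [mem_insert] at hx
      rcases hx with rfl | rfl | hx
      · rw [swap_apply_left]
      · rw [swap_apply_right, apply_self ht2]
      · rw [mem_fx.mp (hΓ hx), swap_apply_of_ne_of_ne (fun e : x = a => ha' (e ▸ hx))
          (fun e : x = t a => hta (e ▸ hx))]
    obtain ⟨Γ, hΓ, e, he, hfix⟩ := exists_fixed_point (k := k - 2) (by omega) (by omega) ht hI
    have hbot : fixer G Γ = ⊥ := by
      rw [Subgroup.eq_bot_iff_forall]
      intro g hg
      refine hone (insert e Γ) (by rw [card_insert_of_notMem he]; omega) g ⟨hg.1, fun x hx => ?_⟩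
      rcases mem_insert.mp hx with rfl | hx
      exacts [hfix g hg, hg.2 x hx]
    have := eq_add_two (k := k - 2) (by omega) (by omega) ht hI (fun s hs => by
      obtain ⟨g, hg, hgi⟩ := card_fixer_const ht hΓ hs
      rw [← Subgroup.card_eq_one, ← card_fixer_eq hg hgi, hbot, Subgroup.card_bot])
    omega
  · exfalso
    have hnoswap : ∀ g ∈ G, ∀ a b, g a = b → g b = a → a = b := by
      intro g hg a b h1 h2
      by_contra hab
      refine hnosym {a, b} (card_pair hab) (symInd_of_swaps fun c hc d hd hcd => ⟨g, hg, fun x hx => ?_⟩)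
      simp only [mem_insert, mem_singleton] at hc hd hx
      rcases hc with rfl | rfl <;> rcases hd with rfl | rfl <;> rcases hx with rfl | rfl <;>
        simp_all
    obtain ⟨a₀, b₀, hab₀⟩ := Fintype.exists_pair_of_one_lt_card (α := α) (by omega)
    let r : α → α → Prop := fun a b => ∃ g ∈ G, g a₀ = a ∧ g b₀ = b
    have htot : ∀ a b, a ≠ b → r a b ∨ r b a := by
      intro a b hab
      obtain ⟨g, hg, hgi⟩ := hh1 {a₀, b₀} {a, b} (card_pair hab₀) (card_pair hab)
      have h1 : g a₀ ∈ ({a, b} : Finset α) := by rw [← hgi]; simp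
      have h2 : g b₀ ∈ ({a, b} : Finset α) := by rw [← hgi]; simp
      simp only [mem_insert, mem_singleton] at h1 h2
      rcases h1 with h1 | h1 <;> rcases h2 with h2 | h2
      · exact absurd (g.injective (h1.trans h2.symm)) hab₀
      · exact Or.inl ⟨g, hg, h1, h2⟩
      · exact Or.inr ⟨g, hg, h1, h2⟩
      · exact absurd (g.injective (h1.trans h2.symm)) hab₀
    have hasym : ∀ a b, r a b → ¬ r b a := by
      rintro a b ⟨g, hg, h1, h2⟩ ⟨f, hf, h3, h4⟩
      refine hab₀ (g.injective ((h1.trans ?_).trans h2.symm))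
      refine hnoswap (f * g⁻¹) (G.mul_mem hf (G.inv_mem hg)) a b ?_ ?_
      · rw [Perm.mul_apply, show g⁻¹ a = a₀ by rw [Perm.inv_eq_iff_eq, h1], h3]
      · rw [Perm.mul_apply, show g⁻¹ b = b₀ by rw [Perm.inv_eq_iff_eq, h2], h4]
    have hirr : ∀ a, ¬ r a a := fun a h => hasym a a h h
    have hinv : ∀ g ∈ G, ∀ a b, r a b → r (g a) (g b) := by
      rintro g hg a b ⟨f, hf, h1, h2⟩
      exact ⟨g * f, G.mul_mem hg hf, by rw [Perm.mul_apply, h1], by rw [Perm.mul_apply, h2]⟩
    let out : α → Finset α := fun a => univ.filter (r a)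
    have hout : ∀ a b, (out a).card = (out b).card := by
      intro a b
      obtain ⟨g, hg, hgx⟩ := ht {a} (fun _ => b) (by simp) (by simp)
      have hga : g a = b := hgx a (mem_singleton_self a)
      refine card_bij (fun x _ => g x) (fun x hx => ?_) (fun x _ y _ e => g.injective e) fun y hy => ?_
      · simp only [out, mem_filter, mem_univ, true_and] at hx ⊢
        exact hga ▸ hinv g hg a x hx
      · refine ⟨g⁻¹ y, ?_, by simp⟩
        simp only [out, mem_filter, mem_univ, true_and] at hy ⊢
        have := hinv g⁻¹ (G.inv_mem hg) b y hy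
        rwa [show g⁻¹ b = a by rw [Perm.inv_eq_iff_eq, hga]] at this
    -- a cyclic triangle
    obtain ⟨x, y, z, hxy, hyz, hxz⟩ : ∃ x y z, r x y ∧ r y z ∧ ¬ r x z ∧ x ≠ z := by
      by_contra hne
      push Not at hne
      have hxy : r a₀ b₀ := ⟨1, G.one_mem, rfl, rfl⟩
      have hsub : out b₀ ⊆ (out a₀).erase b₀ := by
        intro z hz
        simp only [out, mem_filter, mem_univ, true_and, mem_erase] at hz ⊢
        refine ⟨fun e => hirr _ (e ▸ hz), ?_⟩
        by_contra h
        exact hasym _ _ hz ((hne a₀ b₀ z hxy hz h) ▸ hxy)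
      have := card_le_card hsub
      rw [card_erase_of_mem (by simp [out, hxy]), hout b₀ a₀] at this
      have : 0 < (out a₀).card := card_pos.mpr ⟨b₀, by simp [out, hxy]⟩
      omega
    obtain ⟨hnxz, hxz⟩ := hxz
    have hzx : r z x := (htot x z hxz).resolve_left hnxz
    -- a transitive triangle
    obtain ⟨p, q, w, hpq, hpw, hqw⟩ : ∃ p q w, r p q ∧ r p w ∧ r q w := by
      obtain ⟨v, hv⟩ : ∃ v, 1 < (out v).card := by
        by_contra hle
        push Not at hle
        obtain ⟨u, hu⟩ := card_pos.mp (show 0 < (({x, y, z} : Finset α)ᶜ).card by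
          rw [card_compl]; have := card_le_three (a := x) (b := y) (c := z); omega)
        simp only [mem_compl, mem_insert, mem_singleton, not_or] at hu
        have hsingle : ∀ a b c, r a b → r a c → b = c := fun a b c h1 h2 =>
          card_le_one.mp (hle a) b (by simp [out, h1]) c (by simp [out, h2])
        rcases htot x u (Ne.symm hu.1) with h | h
        · exact hu.2.1 (hsingle x y u hxy h).symm
        rcases htot y u (Ne.symm hu.2.1) with h' | h'
        · exact hu.2.2 (hsingle y z u hyz h').symm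
        exact (show x ≠ y from fun e => hirr _ (e ▸ hxy)) (hsingle u x y h h')
      obtain ⟨q, hq, w, hw, hqw⟩ := one_lt_card.mp hv
      simp only [out, mem_filter, mem_univ, true_and] at hq hw
      rcases htot q w hqw with h | h
      · exact ⟨v, q, w, hq, hw, h⟩
      · exact ⟨v, w, q, hw, hq, h⟩
    have hne3 : ∀ {a b c : α}, a ≠ b → a ≠ c → b ≠ c → ({a, b, c} : Finset α).card = 3 := fun h1 h2 h3 => by
      rw [card_insert_of_notMem (by simp [h1, h2]), card_pair h3]
    have hne : ∀ {a b}, r a b → a ≠ b := fun h e => hirr _ (e ▸ h)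
    obtain ⟨g, hg, hgi⟩ := hh {x, y, z} {p, q, w}
      (hne3 (hne hxy) hxz (hne hyz)) (hne3 (hne hpq) (hne hpw) (hne hqw))
    have hp : p ∈ ({x, y, z} : Finset α).image g := by rw [hgi]; simp
    -- the source `p` of the transitive triangle would be the image of a non-source
    have hm : ∀ u ∈ ({x, y, z} : Finset α), g u ∈ ({p, q, w} : Finset α) := fun u hu =>
      (image_mem_iff hgi).mpr hu
    have hno : ∀ u ∈ ({p, q, w} : Finset α), ¬ r u p := by
      intro u hu
      simp only [mem_insert, mem_singleton] at hu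
      rcases hu with rfl | rfl | rfl
      exacts [hirr _, hasym _ _ hpq, hasym _ _ hpw]
    simp only [mem_image] at hp
    obtain ⟨u, hu, hup⟩ := hp
    simp only [mem_insert, mem_singleton] at hu
    rcases hu with rfl | rfl | rfl
    · exact hno _ (hm z (by simp)) (hup ▸ hinv g hg z u hzx)
    · exact hno _ (hm x (by simp)) (hup ▸ hinv g hg x u hxy)
    · exact hno _ (hm y (by simp)) (hup ▸ hinv g hg y u hyz)
  -- `k = 4, 5`
  obtain ⟨F, -, hF⟩ := exists_subset_card_eq (s := (univ : Finset α)) (n := k - 2) (by rw [card_univ]; omega)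
  set x := Nat.card (fixer G F) with hx
  have hx0 : 0 < x := Nat.card_pos
  have hfree : ∀ g ∈ fixer G F, ∀ z ∉ F, g z = z → g = 1 := fun g hg z hz hgz =>
    hone (insert z F) (by rw [card_insert_of_notMem hz]; omega) g ⟨hg.1, fun w hw => by
      rcases mem_insert.mp hw with rfl | hw
      exacts [hgz, hg.2 w hw]⟩
  have hxd : x ∣ Fintype.card α - (k - 2) := by
    have := card_fixer_dvd hfree
    rwa [card_compl, hF] at this
  have hord : Nat.card G = (Fintype.card α).choose (k - 2) * (k - 2).factorial * x :=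
    card_group (by omega) ht hF
  have hxne : x ≠ Fintype.card α - (k - 2) := by
    intro he
    apply hnt
    have hnat : ∀ z ∉ F, ∀ w ∉ F, ∃ g ∈ fixer G F, g z = w := by
      intro z hz w hw
      have himg : (univ.filter (fun g : Perm α => g ∈ fixer G F)).image (fun g : Perm α => g z) = Fᶜ := by
        refine eq_of_subset_of_card_le ?_ ?_
        · intro v hv
          obtain ⟨g, hg, rfl⟩ := mem_image.mp hv
          simp only [mem_filter, mem_univ, true_and] at hg
          rw [mem_compl]
          intro h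
          have := g.injective (hg.2 _ h)
          exact hz (this ▸ h)
        · rw [card_image_of_injOn, ← Fintype.card_subtype, ← Nat.card_eq_fintype_card]
          · rw [card_compl, hF]
            exact le_of_eq (he.symm.trans hx)
          · intro g hg f hf e
            simp only [coe_filter, mem_univ, true_and, Set.mem_setOf_eq] at hg hf
            refine (inv_mul_eq_one.mp (hfree _ ((fixer G F).mul_mem ((fixer G F).inv_mem hf) hg) z hz ?_)).symm
            rw [Perm.mul_apply, Perm.inv_eq_iff_eq]; exact e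
      have hwm : w ∈ (univ.filter (fun g : Perm α => g ∈ fixer G F)).image (fun g : Perm α => g z) := by
        rw [himg, mem_compl]; exact hw
      obtain ⟨g, hg, hgw⟩ := mem_image.mp hwm
      exact ⟨g, (mem_filter.mp hg).2, hgw⟩
    intro s f hs hf
    rcases Nat.lt_or_ge s.card (k - 1) with hlt | hge
    · exact ht s f (by omega) hf
    obtain ⟨a, ha⟩ := card_pos.mp (show 0 < s.card by omega)
    obtain ⟨g₁, hg₁, hg₁x⟩ := ht (s.erase a) f (by rw [card_erase_of_mem ha]; omega)
      (hf.mono (fun v hv => by simpa using (mem_erase.mp hv).2))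
    obtain ⟨g₂, hg₂, hg₂x⟩ := card_fixer_const ht hF (show (s.erase a).card = k - 2 by
      rw [card_erase_of_mem ha]; omega) |> fun h => (⟨h.choose, h.choose_spec.1, h.choose_spec.2⟩ :
        ∃ g₂, g₂ ∈ G ∧ F.image g₂ = s.erase a)
    have haF : g₂⁻¹ a ∉ F := fun h => by
      have := (image_mem_iff hg₂x).mpr h
      simp at this
    have hbF : g₂⁻¹ (g₁⁻¹ (f a)) ∉ F := fun h => by
      have h' := (image_mem_iff hg₂x).mpr h
      rw [show ∀ v, g₂ (g₂⁻¹ v) = v from fun v => by simp] at h'
      have h3 := hg₁x _ h'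
      rw [show ∀ v, g₁ (g₁⁻¹ v) = v from fun v => by simp] at h3
      have hm := (mem_erase.mp h').2
      exact (mem_erase.mp h').1 (hf (mem_coe.mpr hm) (mem_coe.mpr ha) h3.symm)
    obtain ⟨e, heF, hee⟩ := hnat _ haF _ hbF
    refine ⟨g₁ * (g₂ * e * g₂⁻¹), G.mul_mem hg₁ (G.mul_mem (G.mul_mem hg₂ heF.1) (G.inv_mem hg₂)), fun v hv => ?_⟩
    rcases eq_or_ne v a with rfl | hva
    · rw [Perm.mul_apply, Perm.mul_apply, Perm.mul_apply, hee]
      simp
    · have hv' : v ∈ s.erase a := mem_erase.mpr ⟨hva, hv⟩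
      have hvF : g₂⁻¹ v ∈ F := (image_mem_iff hg₂x).mp (by simpa using hv')
      rw [Perm.mul_apply, Perm.mul_apply, Perm.mul_apply, heF.2 _ hvF]
      simpa using hg₁x v hv'
  have hC1 := choose_dvd_card (G := G) (m := k - 1) (by omega) hh1
  have hC2 := choose_dvd_card (G := G) (m := k) hkn hh
  have hfac : ∀ j, (Fintype.card α).descFactorial j = j.factorial * (Fintype.card α).choose j :=
    Nat.descFactorial_eq_factorial_mul_choose _
  rcases hk45 with rfl | rfl
  · obtain ⟨m, hm⟩ : ∃ m, Fintype.card α = m + 4 := ⟨Fintype.card α - 4, by omega⟩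
    have e2 := hfac 2; have e3 := hfac 3; have e4 := hfac 4
    simp [hm, Nat.descFactorial, Nat.factorial] at e2 e3 e4
    simp only [hm, Nat.reduceSub, show Nat.factorial 2 = 2 from rfl] at hord hC1 hC2
    replace hxd : x ∣ m + 2 := by rwa [show Fintype.card α - (4 - 2) = m + 2 by omega] at hxd
    replace hxne : x ≠ m + 2 := by rwa [show Fintype.card α - (4 - 2) = m + 2 by omega] at hxne
    have d1 : m + 2 ∣ 6 * x := by
      refine Nat.dvd_of_mul_dvd_mul_left (show 0 < (m + 4) * (m + 3) by positivity) ?_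
      have := Nat.mul_dvd_mul_left 6 hC1
      rw [hord] at this
      convert this using 1 <;> nlinarith [e2, e3]
    have d2 : (m + 2) * (m + 1) ∣ 24 * x := by
      refine Nat.dvd_of_mul_dvd_mul_left (show 0 < (m + 4) * (m + 3) by positivity) ?_
      have := Nat.mul_dvd_mul_left 24 hC2
      rw [hord] at this
      convert this using 1 <;> nlinarith [e2, e4]
    obtain ⟨b1, b2⟩ := bound d2 hxd hxne hx0 (by norm_num)
    have hmem := (arith4 m (List.mem_range.mpr (by omega)) x (List.mem_range.mpr (by omega))).resolve_left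
      (not_not.mpr ⟨d2, d1, hxd, hxne, hx0, by omega⟩)
    simp only [List.mem_cons, Prod.mk.injEq, List.mem_nil_iff, or_false] at hmem
    rcases hmem with ⟨rfl, h⟩ | ⟨rfl, h⟩ | ⟨rfl, h⟩ <;> norm_num at hm <;> rw [h] at hord
    · refine Or.inr (Or.inl ⟨hm, rfl, ?_⟩)
      rw [hord]; rfl
    · exfalso
      refine no_60 hm ht hh1 (hord.trans (by rfl)) fun s hs g hg => hone s (by omega) g hg
    · exfalso
      haveI : Fact (Nat.Prime 11) := ⟨by norm_num⟩
      refine prime_degree_false (G := G) 11 (Or.inl hm) 3 110 (hord.trans (by rfl)) (by norm_num)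
        (by norm_num) (by norm_num) (by norm_num) (by norm_num) (by decide)
  · obtain ⟨m, hm⟩ : ∃ m, Fintype.card α = m + 5 := ⟨Fintype.card α - 5, by omega⟩
    have e3 := hfac 3; have e4 := hfac 4; have e5 := hfac 5
    simp [hm, Nat.descFactorial, Nat.factorial] at e3 e4 e5
    simp only [hm, Nat.reduceSub, show Nat.factorial 3 = 6 from rfl] at hord hC1 hC2
    replace hxd : x ∣ m + 2 := by rwa [show Fintype.card α - (5 - 2) = m + 2 by omega] at hxd
    replace hxne : x ≠ m + 2 := by rwa [show Fintype.card α - (5 - 2) = m + 2 by omega] at hxne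
    have d1 : m + 2 ∣ 24 * x := by
      refine Nat.dvd_of_mul_dvd_mul_left (show 0 < (m + 5) * (m + 4) * (m + 3) by positivity) ?_
      have := Nat.mul_dvd_mul_left 24 hC1
      rw [hord] at this
      convert this using 1 <;> nlinarith [e3, e4]
    have d2 : (m + 2) * (m + 1) ∣ 120 * x := by
      refine Nat.dvd_of_mul_dvd_mul_left (show 0 < (m + 5) * (m + 4) * (m + 3) by positivity) ?_
      have := Nat.mul_dvd_mul_left 120 hC2
      rw [hord] at this
      convert this using 1 <;> nlinarith [e3, e5]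
    obtain ⟨b1, b2⟩ := bound d2 hxd hxne hx0 (by norm_num)
    have hmem := (arith5 m (List.mem_range.mpr (by omega)) x (List.mem_range.mpr (by omega))).resolve_left
      (not_not.mpr ⟨d2, d1, hxd, hxne, hx0, by omega⟩)
    simp only [List.mem_cons, Prod.mk.injEq, List.mem_nil_iff, or_false] at hmem
    rcases hmem with ⟨rfl, h⟩ | ⟨rfl, h⟩ | ⟨rfl, h⟩ | ⟨rfl, h⟩ | ⟨rfl, h⟩ | ⟨rfl, h⟩ | ⟨rfl, h⟩ | ⟨rfl, h⟩ |
      ⟨rfl, h⟩ | ⟨rfl, h⟩ | ⟨rfl, h⟩ <;> norm_num at hm <;> rw [h] at hord
    · exact Or.inr (Or.inr (Or.inl ⟨hm, rfl, hord.trans (by rfl)⟩))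
    · exfalso
      refine no_210 hm ht (hord.trans (by rfl)) fun s hs g hg => ?_
      have hbot : fixer G s = ⊥ := by
        have hc := card_group (G := G) (m := 3) (by omega) ht hs
        rw [hord, hm] at hc
        rw [← Subgroup.card_eq_one]
        norm_num [show Nat.choose 7 3 = 35 by decide, show Nat.factorial 3 = 6 from rfl] at hc ⊢
        omega
      exact Subgroup.mem_bot.mp (hbot ▸ hg)
    · exfalso
      haveI : Fact (Nat.Prime 7) := ⟨by norm_num⟩
      refine prime_degree_false (G := G) 7 (Or.inl hm) 10 42 (hord.trans (by rfl)) (by norm_num)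
        (by norm_num) (by norm_num) (by norm_num) (by norm_num) (by decide)
    · exact Or.inr (Or.inr (Or.inr ⟨hm, rfl, Or.inl (hord.trans (by rfl))⟩))
    · exfalso
      exact no_1008 hm ht (hord.trans (by rfl)) fun s hs g hg => hone s (by omega) g hg
    · exact Or.inr (Or.inr (Or.inr ⟨hm, rfl, Or.inr (hord.trans (by rfl))⟩))
    · exfalso
      haveI : Fact (Nat.Prime 11) := ⟨by norm_num⟩
      refine prime_degree_false (G := G) 11 (Or.inr hm) 36 110 (hord.trans (by rfl)) (by norm_num)
        (by norm_num) (by norm_num) (by norm_num) (by norm_num) (by decide)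
    · exfalso
      haveI : Fact (Nat.Prime 19) := ⟨by norm_num⟩
      refine prime_degree_false (G := G) 19 (Or.inl hm) 34 342 (hord.trans (by rfl)) (by norm_num)
        (by norm_num) (by norm_num) (by norm_num) (by norm_num) (by decide +kernel)
    · exfalso
      haveI : Fact (Nat.Prime 19) := ⟨by norm_num⟩
      refine prime_degree_false (G := G) 19 (Or.inl hm) 68 342 (hord.trans (by rfl)) (by norm_num)
        (by norm_num) (by norm_num) (by norm_num) (by norm_num) (by decide +kernel)
    · exfalso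
      haveI : Fact (Nat.Prime 19) := ⟨by norm_num⟩
      refine prime_degree_false (G := G) 19 (Or.inl hm) 136 342 (hord.trans (by rfl)) (by norm_num)
        (by norm_num) (by norm_num) (by norm_num) (by norm_num) (by decide +kernel)
    · exfalso
      haveI : Fact (Nat.Prime 23) := ⟨by norm_num⟩
      refine prime_degree_false (G := G) 23 (Or.inr hm) 168 506 (hord.trans (by rfl)) (by norm_num)
        (by norm_num) (by norm_num) (by norm_num) (by norm_num) (by decide +kernel)

end CfsgLib.LW
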