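import Cfsg.Agent.LW.AltSet

/-!
`(k-1)`-transitive `k`-homogeneous groups, `k ≥ 5`, are `k`-transitive.
-/

set_option autoImplicit false
set_option linter.unusedSectionVars false
set_option linter.style.haveILetI false
set_option linter.deprecated false

namespace CfsgLib.LW

open Equiv Finset

variable {α : Type*} [Fintype α] [DecidableEq α] {G : Subgroup (Perm α)} {k : ℕ}

theorem swap_mem {D : Finset α} {a b : α} (ha : a ∈ D) (hb : b ∈ D) {w : α} (hw : w ∈ D) :
    swap a b w ∈ D := by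
  rcases eq_or_ne w a with rfl | e
  · rwa [swap_apply_left]
  rcases eq_or_ne w b with rfl | e'
  · rwa [swap_apply_right]
  rwa [swap_apply_of_ne_of_ne e e']

theorem swap_supp {D : Finset α} {a b : α} (ha : a ∈ D) (hb : b ∈ D) {w : α} (hw : w ∉ D) :
    swap a b w = w :=
  swap_apply_of_ne_of_ne (fun e => hw (e ▸ ha)) (fun e => hw (e ▸ hb))

theorem mt_of_homogeneous (hk : 5 ≤ k) (hkn : 2 * k ≤ Fintype.card α) (hG : MT G (k - 1))
    (hh : Hom G k) : MT G k := by
  classical
  by_contra hnot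
  obtain ⟨Δ₀, hΔ₀, hA₀⟩ := exists_altInd (k := k - 1) (by omega) (by omega) hG
  have hAlt : ∀ Δ : Finset α, Δ.card = k → AltInd G Δ := by
    intro Δ hΔ
    obtain ⟨g, hg, hgi⟩ := hh Δ₀ Δ (by omega) hΔ
    exact altInd_conj hA₀ hg hgi
  have noswap : ∀ g ∈ G, ∀ Γ : Finset α, Γ.card + 2 = k → (∀ x ∈ Γ, g x = x) →
      ∀ a b, a ∉ Γ → b ∉ Γ → g a = b → g b = a → a = b := by
    intro g hg Γ hΓ hfix a b ha hb hab hba
    by_contra hne
    have hD : (insert a (insert b Γ)).card = k := by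
      rw [card_insert_of_notMem (by simp [hne, ha]), card_insert_of_notMem hb]; omega
    refine hnot (mt_of_symInd (by omega) hh hD
      (symInd_of_alt (hAlt _ hD) (a := a) (b := b) (by simp) (by simp) hne hg fun x hx => ?_))
    simp only [mem_insert] at hx
    rcases hx with rfl | rfl | hx
    · rw [swap_apply_left, hab]
    · rw [swap_apply_right, hba]
    · rw [hfix x hx, swap_apply_of_ne_of_ne (fun e : x = a => ha (e ▸ hx)) (fun e : x = b => hb (e ▸ hx))]
  have hI : InvSmall G (k - 1) := by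
    intro t ht ht2 ht1
    by_contra hgt
    obtain ⟨Γ, hΓ, hΓc⟩ := exists_subset_card_eq (s := fx t) (n := k - 2) (by omega)
    obtain ⟨a, ha⟩ : ∃ a, t a ≠ a := by
      by_contra h; push Not at h; exact ht1 (Equiv.ext h)
    have ha' : a ∉ Γ := fun h => ha (mem_fx.mp (hΓ h))
    have hta : t a ∉ Γ := fun h => ha (by
      have := mem_fx.mp (hΓ h); rw [apply_self ht2] at this; exact this.symm)
    exact ha (noswap t ht Γ (by omega) (fun x hx => mem_fx.mp (hΓ hx)) a (t a) ha' hta rfl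
      (apply_self ht2 a)).symm
  have hfixall : ∀ Q : Finset α, Q.card + 1 = k → ∀ e ∉ Q, ∀ g ∈ fixer G Q, g e = e := by
    intro Q hQ e he
    obtain ⟨T4, hT4, hT4c⟩ := exists_subset_card_eq (s := Q) (n := 4) (by omega)
    obtain ⟨a, b, c, d, hab, hac, had, hbc, hbd, hcd, rfl⟩ := card_eq_four.mp hT4c
    simp only [insert_subset_iff, singleton_subset_iff] at hT4
    obtain ⟨ha, hb, hc, hd⟩ := hT4
    set Q' := Q \ {a, b, c, d} with hQ'
    have hQ'c : Q'.card + 5 = k := by
      rw [hQ', card_sdiff_of_subset (by simp [insert_subset_iff, ha, hb, hc, hd]), hT4c]; omega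
    set D := insert e Q with hD
    have hDc : D.card = k := by rw [hD, card_insert_of_notMem he]; omega
    have hmD : ∀ {w}, w ∈ Q → w ∈ D := fun hw => mem_insert_of_mem hw
    have hno : NoInv G D := hI.noInv (by omega)
    have key : ∀ σ : Perm α, (∀ w ∉ D, σ w = w) → Perm.sign σ = 1 → σ * σ = 1 → σ a ≠ a →
        ∃ t ∈ G, t * t = 1 ∧ ∀ w ∈ D, t w = σ w := by
      intro σ h1 h2 h3 h4
      obtain ⟨g, hg, hgx⟩ := hAlt D hDc σ h1 h2
      obtain ⟨t, ht, ht2, -, htx⟩ := lift_inv hno hg (fun w hw => by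
        have hm : σ w ∈ D := by
          by_contra h
          exact h ((σ.injective (h1 _ h)).symm ▸ hw)
        rw [hgx w hw, hgx _ hm, apply_self h3]) (hmD ha) (by rw [hgx a (hmD ha)]; exact h4)
      exact ⟨t, ht, ht2, fun w hw => (htx w hw).trans (hgx w hw)⟩
    set σ₁ := swap a b * swap c d with hσ₁
    set σ₂ := swap a c * swap b d with hσ₂
    have hs₁ : ∀ w ∉ D, σ₁ w = w := fun w hw => by
      rw [hσ₁, Perm.mul_apply, swap_supp (hmD hc) (hmD hd) hw, swap_supp (hmD ha) (hmD hb) hw]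
    have hs₂ : ∀ w ∉ D, σ₂ w = w := fun w hw => by
      rw [hσ₂, Perm.mul_apply, swap_supp (hmD hb) (hmD hd) hw, swap_supp (hmD ha) (hmD hc) hw]
    have h₁a : σ₁ a = b := by simp [hσ₁, swap_apply_of_ne_of_ne hac had]
    have h₁b : σ₁ b = a := by simp [hσ₁, swap_apply_of_ne_of_ne hbc hbd]
    have h₁c : σ₁ c = d := by simp [hσ₁, swap_apply_of_ne_of_ne had.symm hbd.symm]
    have h₁d : σ₁ d = c := by simp [hσ₁, swap_apply_of_ne_of_ne hac.symm hbc.symm]
    have h₂a : σ₂ a = c := by simp [hσ₂, swap_apply_of_ne_of_ne hab had]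
    have h₂b : σ₂ b = d := by simp [hσ₂, swap_apply_of_ne_of_ne had.symm hcd.symm]
    have h₂c : σ₂ c = a := by simp [hσ₂, swap_apply_of_ne_of_ne hbc.symm hcd]
    have h₂d : σ₂ d = b := by simp [hσ₂, swap_apply_of_ne_of_ne hab.symm hbc]
    have hoth₁ : ∀ w, w ≠ a → w ≠ b → w ≠ c → w ≠ d → σ₁ w = w := fun w p q r s => by
      simp [hσ₁, swap_apply_of_ne_of_ne, p, q, r, s]
    have hoth₂ : ∀ w, w ≠ a → w ≠ b → w ≠ c → w ≠ d → σ₂ w = w := fun w p q r s => by
      simp [hσ₂, swap_apply_of_ne_of_ne, p, q, r, s]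
    have split : ∀ (P : α → Prop), P a → P b → P c → P d →
        (∀ w, w ≠ a → w ≠ b → w ≠ c → w ≠ d → P w) → ∀ w, P w := by
      intro P pa pb pc pd po w
      by_cases e1 : w = a
      · exact e1 ▸ pa
      by_cases e2 : w = b
      · exact e2 ▸ pb
      by_cases e3 : w = c
      · exact e3 ▸ pc
      by_cases e4 : w = d
      · exact e4 ▸ pd
      exact po w e1 e2 e3 e4
    have hsq₁ : σ₁ * σ₁ = 1 := Equiv.ext (split _ (by simp [h₁a, h₁b]) (by simp [h₁a, h₁b])
      (by simp [h₁c, h₁d]) (by simp [h₁c, h₁d]) fun w p q r s => by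
        simp [hoth₁ w p q r s])
    have hsq₂ : σ₂ * σ₂ = 1 := Equiv.ext (split _ (by simp [h₂a, h₂c]) (by simp [h₂b, h₂d])
      (by simp [h₂a, h₂c]) (by simp [h₂b, h₂d]) fun w p q r s => by
        simp [hoth₂ w p q r s])
    have hc12 : ∀ w, σ₁ (σ₂ w) = σ₂ (σ₁ w) := split _ (by simp [h₁a, h₁c, h₂a, h₂b])
      (by simp [h₁b, h₁d, h₂a, h₂b]) (by simp [h₁a, h₁c, h₂c, h₂d]) (by simp [h₁b, h₁d, h₂c, h₂d])
      fun w p q r s => by simp [hoth₁ w p q r s, hoth₂ w p q r s]
    obtain ⟨t, htG, ht2, htx⟩ := key σ₁ hs₁ (by simp [hσ₁, Perm.sign_swap hab, Perm.sign_swap hcd])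
      hsq₁ (by rw [h₁a]; exact hab.symm)
    obtain ⟨u₀, hu₀G, hu₀2, hu₀x⟩ := key σ₂ hs₂ (by simp [hσ₂, Perm.sign_swap hac, Perm.sign_swap hbd])
      hsq₂ (by rw [h₂a]; exact hac.symm)
    have hm₁ : ∀ w ∈ D, σ₁ w ∈ D := fun w hw => by
      rw [hσ₁, Perm.mul_apply]; exact swap_mem (hmD ha) (hmD hb) (swap_mem (hmD hc) (hmD hd) hw)
    have hm₂ : ∀ w ∈ D, σ₂ w ∈ D := fun w hw => by
      rw [hσ₂, Perm.mul_apply]; exact swap_mem (hmD ha) (hmD hc) (swap_mem (hmD hb) (hmD hd) hw)
    obtain ⟨u, huG, hu2, htu, hux'⟩ := lift_commute hno htG hu₀G ht2 hu₀2 (fun w hw => by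
      rw [hu₀x w hw, htx _ (hm₂ w hw), htx w hw, hu₀x _ (hm₁ w hw), hc12])
    have hux : ∀ w ∈ D, u w = σ₂ w := fun w hw => (hux' w hw).trans (hu₀x w hw)
    have htux : ∀ w ∈ D, (t * u) w = σ₁ (σ₂ w) := fun w hw => by
      rw [Perm.mul_apply, hux w hw, htx _ (hm₂ w hw)]
    have hta : t a = b := by rw [htx a (hmD ha), h₁a]
    have hua : u a = c := by rw [hux a (hmD ha), h₂a]
    have htua : (t * u) a = d := by rw [htux a (hmD ha), h₂a, h₁c]
    have ht1 : t ≠ 1 := fun h => hab (by rw [h, Perm.one_apply] at hta; exact hta)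
    have hu1 : u ≠ 1 := fun h => hac (by rw [h, Perm.one_apply] at hua; exact hua)
    have htu1 : t * u ≠ 1 := fun h => had (by rw [h, Perm.one_apply] at htua; exact htua)
    have hut : u ≠ t := fun h => hbc (by rw [h] at hua; exact hta.symm.trans hua)
    have hti : t⁻¹ = t := inv_eq_of_mul_eq_one_left ht2
    have hui : u⁻¹ = u := inv_eq_of_mul_eq_one_left hu2
    have htu2 : t * u * (t * u) = 1 := by
      rw [mul_assoc, ← mul_assoc u t u, ← htu, mul_assoc t u u, hu2, mul_one, ht2]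
    let A : Subgroup (Perm α) :=
      { carrier := {x | x = 1 ∨ x = t ∨ x = u ∨ x = t * u}
        one_mem' := Or.inl rfl
        mul_mem' := by
          have e1 : t * (t * u) = u := by rw [← mul_assoc, ht2, one_mul]
          have e2 : u * (t * u) = t := by rw [← mul_assoc, ← htu, mul_assoc, hu2, mul_one]
          have e3 : t * u * t = u := by rw [htu, mul_assoc, ht2, mul_one]
          have e4 : t * u * u = t := by rw [mul_assoc, hu2, mul_one]
          rintro x y (rfl | rfl | rfl | rfl) (rfl | rfl | rfl | rfl) <;>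
            simp [ht2, hu2, ← htu, e1, e2, e3, e4, htu2]
        inv_mem' := by
          rintro x (rfl | rfl | rfl | rfl)
          · exact Or.inl inv_one
          · exact Or.inr (Or.inl hti)
          · exact Or.inr (Or.inr (Or.inl hui))
          · exact Or.inr (Or.inr (Or.inr (inv_eq_of_mul_eq_one_left htu2))) }
    have hA4 : Nat.card A = 4 := by
      show Nat.card ({x | x = 1 ∨ x = t ∨ x = u ∨ x = t * u} : Set (Perm α)) = 4
      rw [show ({x | x = 1 ∨ x = t ∨ x = u ∨ x = t * u} : Set (Perm α)) =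
        (({1, t, u, t * u} : Finset (Perm α)) : Set (Perm α)) from by ext; simp,
        Nat.card_eq_card_toFinset, Finset.toFinset_coe]
      rw [card_insert_of_notMem (by simp [ht1.symm, hu1.symm, htu1.symm]),
        card_insert_of_notMem (by
          simp only [mem_insert, mem_singleton, not_or]
          exact ⟨hut.symm, fun h => hu1 (mul_left_cancel (a := t) (by rw [mul_one]; exact h.symm))⟩),
        card_insert_of_notMem (by
          simp only [mem_singleton]
          exact fun h => ht1 (mul_right_cancel (b := u) (by rw [one_mul]; exact h.symm))), card_singleton]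
    have hAsq : ∀ x : A, x * x = 1 := by
      rintro ⟨x, rfl | rfl | rfl | rfl⟩ <;> apply Subtype.ext
      exacts [one_mul 1, ht2, hu2, htu2]
    haveI : IsMulCommutative A := ⟨⟨fun x y => by
      have h := inv_eq_of_mul_eq_one_left (hAsq (x * y))
      rw [mul_inv_rev, inv_eq_of_mul_eq_one_left (hAsq x), inv_eq_of_mul_eq_one_left (hAsq y)] at h
      exact h.symm⟩⟩
    have hAc : ¬ IsCyclic A := by
      intro hcy
      have := IsCyclic.card_pow_eq_one_le (α := A) (n := 2) (by norm_num)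
      rw [filter_true_of_mem (fun x _ => by rw [pow_two]; exact hAsq x), card_univ,
        ← Nat.card_eq_fintype_card, hA4] at this
      omega
    have hAG : ∀ x ∈ A, x ∈ G := by
      rintro x (rfl | rfl | rfl | rfl)
      exacts [G.one_mem, htG, huG, G.mul_mem htG huG]
    have hQfix : ∀ w ∈ Q', t w = w ∧ u w = w := by
      intro w hw
      simp only [hQ', mem_sdiff, mem_insert, mem_singleton, not_or] at hw
      exact ⟨by rw [htx w (hmD hw.1), hoth₁ w hw.2.1 hw.2.2.1 hw.2.2.2.1 hw.2.2.2.2],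
        by rw [hux w (hmD hw.1), hoth₂ w hw.2.1 hw.2.2.1 hw.2.2.2.1 hw.2.2.2.2]⟩
    have hea : e ≠ a ∧ e ≠ b ∧ e ≠ c ∧ e ≠ d := ⟨fun h => he (h ▸ ha), fun h => he (h ▸ hb),
      fun h => he (h ▸ hc), fun h => he (h ▸ hd)⟩
    have hte : t e = e := by
      rw [htx e (mem_insert_self _ _), hoth₁ e hea.1 hea.2.1 hea.2.2.1 hea.2.2.2]
    have hue : u e = e := by
      rw [hux e (mem_insert_self _ _), hoth₂ e hea.1 hea.2.1 hea.2.2.1 hea.2.2.2]
    have hmapQ : ∀ x ∈ A, Q.image x = Q := by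
      intro x hx
      refine eq_of_subset_of_card_le ?_ (by rw [card_image_of_injective _ x.injective])
      intro w hw
      obtain ⟨v, hv, rfl⟩ := mem_image.mp hw
      have h1 : ∀ y ∈ G, (∀ z ∈ D, y z ∈ D) → y e = e → y v ∈ Q := by
        intro y _ hy hye
        refine (mem_insert.mp (hy v (hmD hv))).resolve_left fun h => he ?_
        rw [← hye] at h
        exact y.injective h ▸ hv
      rcases hx with rfl | rfl | rfl | rfl
      · exact hv
      · exact h1 _ htG (fun z hz => by rw [htx z hz]; exact hm₁ z hz) hte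
      · exact h1 _ huG (fun z hz => by rw [hux z hz]; exact hm₂ z hz) hue
      · exact h1 _ (G.mul_mem htG huG) (fun z hz => by
          rw [htux z hz]; exact hm₁ _ (hm₂ z hz)) (by rw [Perm.mul_apply, hue, hte])
    have hQ0 : NoInv G Q := hI.noInv (by omega)
    have hK : fixer G Q ≤ fixer ⊤ {e} := by
      refine CfsgLib.CoprimeAction.le_of_centralizers_le hAc (fun x hx => ?_) ?_ ?_
      · rw [Subgroup.mem_normalizer_iff]
        exact fun g => (fixer_conj (hAG x hx) (hmapQ x hx)).symm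
      · rw [hA4, show 4 = 2 ^ 2 by norm_num]
        exact Nat.Coprime.pow_left 2 (Nat.coprime_two_left.mpr (odd_card_fixer hQ0))
      · intro x hx hx1 g hg
        obtain ⟨hgK, hgC⟩ := Subgroup.mem_inf.mp hg
        rw [Subgroup.mem_centralizer_singleton_iff] at hgC
        have hx2 : x * x = 1 := congrArg Subtype.val (hAsq ⟨x, hx⟩)
        have hxe : x e = e := by
          rcases hx with rfl | rfl | rfl | rfl
          exacts [rfl, hte, hue, by rw [Perm.mul_apply, hue, hte]]
        have hxQ : ∀ w ∈ Q', x w = w := by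
          intro w hw
          rcases hx with rfl | rfl | rfl | rfl
          exacts [rfl, (hQfix w hw).1, (hQfix w hw).2, by
            rw [Perm.mul_apply, (hQfix w hw).2, (hQfix w hw).1]]
        have hsub : Q' ⊆ fx x := fun w hw => mem_fx.mpr (hxQ w hw)
        set T := fx x \ Q' with hT
        have hTc : T.card ≤ 2 := by
          rw [hT, card_sdiff_of_subset hsub]
          have := hI x (hAG x hx) hx2 hx1
          omega
        have hgT : ∀ w ∈ T, g w ∈ T := by
          intro w hw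
          simp only [hT, mem_sdiff] at hw ⊢
          refine ⟨fx_of_commute hgC.symm hw.1, fun h => hw.2 ?_⟩
          have h1 : g (g w) = g w := hgK.2 _ (sdiff_subset h)
          rwa [g.injective h1] at h
        have heT : e ∈ T := by
          simp only [hT, hQ', mem_sdiff, not_and]
          exact ⟨mem_fx.mpr hxe, fun h => absurd h he⟩
        refine ⟨trivial, fun w hw => ?_⟩
        rw [mem_singleton] at hw; subst hw
        by_contra hne
        have h2 : g (g w) = w := by
          have hsub2 : ({w, g w} : Finset α) = T := eq_of_subset_of_card_le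
            (by simp [insert_subset_iff, heT, hgT w heT]) (by rw [card_pair (Ne.symm hne)]; exact hTc)
          have := hgT _ (hgT w heT)
          rw [← hsub2, mem_insert, mem_singleton] at this
          exact this.resolve_right fun h => hne (g.injective h)
        obtain ⟨Γ, hΓ, hΓc⟩ := exists_subset_card_eq (s := Q) (n := k - 2) (by omega)
        refine hne (noswap g hgK.1 Γ (by omega) (fun z hz => hgK.2 z (hΓ hz)) w (g w)
          (fun h => he (hΓ h)) (fun h => he ?_) rfl h2).symm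
        have h3 := hgK.2 _ (hΓ h)
        exact (g.injective h3) ▸ hΓ h
    exact fun g hg => (hK hg).2 e (mem_singleton_self e)
  have htriv : ∀ Q : Finset α, Q.card + 1 = k → ∀ g ∈ fixer G Q, g = 1 := by
    intro Q hQ g hg
    refine Equiv.ext fun x => ?_
    by_cases hx : x ∈ Q
    · exact hg.2 x hx
    · exact hfixall Q hQ x hx g hg
  obtain ⟨Q, hQ, -⟩ := exists_subset_avoid (A := (∅ : Finset α)) (m := k - 1) (by simp; omega)
  obtain ⟨e₀, he₀, e₁, he₁, e₂, he₂, h01, h02, h12⟩ := two_lt_card.mp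
    (show 2 < Qᶜ.card by rw [card_compl]; omega)
  rw [mem_compl] at he₀ he₁ he₂
  have hall : ∀ e ∉ Q, ∀ e' ∉ Q, ∃ g ∈ G, (∀ w, g w ∈ Q ↔ w ∈ Q) ∧ g e = e' := by
    intro e he e' he'
    have hDc : (insert e Q).card = k := by rw [card_insert_of_notMem he]; omega
    obtain ⟨g, hg, hgi⟩ := hh _ (insert e' Q) hDc (by rw [card_insert_of_notMem he']; omega)
    obtain ⟨d, hd, hde⟩ := mem_image.mp (hgi ▸ mem_insert_self e' Q : e' ∈ (insert e Q).image g)
    obtain ⟨σ, hσs, hσ1, hσe⟩ : ∃ σ : Perm α, (∀ w ∉ insert e Q, σ w = w) ∧ Perm.sign σ = 1 ∧ σ e = d := by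
      by_cases hed : e = d
      · exact ⟨1, fun w _ => rfl, map_one _, by simpa using hed⟩
      obtain ⟨p, hp, q, hq, hpq⟩ := one_lt_card.mp (show 1 < ((insert e Q).erase e |>.erase d).card by
        rw [card_erase_of_mem (mem_erase.mpr ⟨Ne.symm hed, hd⟩), card_erase_of_mem (mem_insert_self e Q)]
        omega)
      simp only [mem_erase] at hp hq
      refine ⟨swap e d * swap p q, fun w hw => ?_, by simp [Perm.sign_swap hed, Perm.sign_swap hpq], ?_⟩
      · rw [Perm.mul_apply, swap_supp hp.2.2 hq.2.2 hw, swap_supp (mem_insert_self e Q) hd hw]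
      · simp [swap_apply_of_ne_of_ne (Ne.symm hp.2.1) (Ne.symm hq.2.1)]
    obtain ⟨h, hhG, hhx⟩ := hAlt _ hDc σ hσs hσ1
    have hge : (g * h) e = e' := by rw [Perm.mul_apply, hhx e (mem_insert_self _ _), hσe, hde]
    have himg : Q.image (g * h) = Q := by
      refine eq_of_subset_of_card_le ?_ (by rw [card_image_of_injective _ (Equiv.injective _)])
      intro w hw
      obtain ⟨v, hv, rfl⟩ := mem_image.mp hw
      have hm : σ v ∈ insert e Q := by
        by_contra hm
        exact hm ((σ.injective (hσs _ hm)).symm ▸ mem_insert_of_mem hv)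
      have h1 : (g * h) v ∈ insert e' Q := by
        rw [Perm.mul_apply, hhx v (mem_insert_of_mem hv)]
        exact (image_mem_iff hgi).mpr hm
      refine (mem_insert.mp h1).resolve_left fun hve => he ?_
      rw [← (g * h).injective (hve.trans hge.symm)]; exact hv
    exact ⟨g * h, G.mul_mem hg hhG, fun w => image_mem_iff himg, hge⟩
  -- two moves with the same parity on `Q`
  have key : ∀ g g', g ∈ G → g' ∈ G → ∀ (h : ∀ w, g w ∈ Q ↔ w ∈ Q) (h' : ∀ w, g' w ∈ Q ↔ w ∈ Q),
      Perm.sign (g.subtypePerm (p := (· ∈ Q)) h) = Perm.sign (g'.subtypePerm (p := (· ∈ Q)) h') →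
      g e₀ = g' e₀ := by
    intro g g' hg hg' h h' hs
    set τ := (g.subtypePerm (p := (· ∈ Q)) h)⁻¹ * g'.subtypePerm (p := (· ∈ Q)) h' with hτ
    obtain ⟨x, hx, hxx⟩ := hAlt (insert e₀ Q) (by rw [card_insert_of_notMem he₀]; omega)
      (Perm.ofSubtype τ) (fun w hw => Perm.ofSubtype_apply_of_not_mem _ fun hc => hw (mem_insert_of_mem hc))
      (by rw [Perm.sign_ofSubtype, hτ, map_mul, map_inv, hs, inv_mul_cancel])
    have h1 : g'⁻¹ * (g * x) = 1 := by
      refine htriv Q (by omega) _ ⟨G.mul_mem (G.inv_mem hg') (G.mul_mem hg hx), fun w hw => ?_⟩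
      rw [Perm.mul_apply, Perm.mul_apply, hxx w (mem_insert_of_mem hw),
        Perm.ofSubtype_apply_of_mem _ hw, Perm.inv_eq_iff_eq]
      show g (g⁻¹ (g' w)) = g' w
      simp
    have h2 : g * x = g' := (inv_mul_eq_one.mp h1).symm
    rw [← h2, Perm.mul_apply, hxx e₀ (mem_insert_self _ _), Perm.ofSubtype_apply_of_not_mem _ he₀]
  obtain ⟨g₁, hg₁, hm₁, hg₁e⟩ := hall e₀ he₀ e₁ he₁
  obtain ⟨g₂, hg₂, hm₂, hg₂e⟩ := hall e₀ he₀ e₂ he₂
  rcases Int.units_eq_one_or (Perm.sign (g₁.subtypePerm (p := (· ∈ Q)) hm₁)) with s1 | s1 <;>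
    rcases Int.units_eq_one_or (Perm.sign (g₂.subtypePerm (p := (· ∈ Q)) hm₂)) with s2 | s2
  · exact h12 (by rw [← hg₁e, ← hg₂e]; exact key _ _ hg₁ hg₂ _ _ (s1.trans s2.symm))
  · have := key 1 g₁ G.one_mem hg₁ (fun _ => Iff.rfl) hm₁ (by
      rw [s1, show (1 : Perm α).subtypePerm (p := (· ∈ Q)) (fun _ => Iff.rfl) = 1 from rfl, map_one])
    exact h01 (by simpa [hg₁e] using this)
  · have := key 1 g₂ G.one_mem hg₂ (fun _ => Iff.rfl) hm₂ (by
      rw [s2, show (1 : Perm α).subtypePerm (p := (· ∈ Q)) (fun _ => Iff.rfl) = 1 from rfl, map_one])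
    exact h02 (by simpa [hg₂e] using this)
  · exact h12 (by rw [← hg₁e, ← hg₂e]; exact key _ _ hg₁ hg₂ _ _ (s1.trans s2.symm))

end CfsgLib.LW
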