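import Cfsg.Agent.LW.Classify
import Cfsg.Agent.S0736

/-!
`k`-homogeneous groups of degree at least `2k` are `(k-1)`-transitive.
-/

set_option autoImplicit false
set_option linter.unusedSectionVars false

namespace CfsgLib.LW

open Equiv Finset

variable {α : Type*} [Fintype α] [DecidableEq α] {G : Subgroup (Perm α)}

theorem hom_pred {k : ℕ} (hk : 2 ≤ k) (hkn : 2 * k ≤ Fintype.card α)
    (hh : MulAction.IsPretransitive G (Set.powersetCard α k)) :
    MulAction.IsPretransitive G (Set.powersetCard α (k - 1)) :=
  Cfsg.Agent.S0736.result G hk hh fun q _ hq => by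
    have := Nat.le_of_dvd (by omega) hq
    omega

theorem pred_transitive : ∀ k : ℕ, 2 ≤ k → 2 * k ≤ Fintype.card α →
    MulAction.IsPretransitive G (Set.powersetCard α k) → MT G (k - 1) := by
  intro k
  induction k with
  | zero => omega
  | succ j ih =>
    intro hk hkn hh
    have hh1 := hom_pred hk hkn hh
    rw [Nat.add_sub_cancel] at hh1 ⊢
    rcases Nat.lt_or_ge j 2 with hj | hj
    · obtain rfl : j = 1 := by omega
      intro s h hs hinj
      rcases s.eq_empty_or_nonempty with rfl | ⟨a, ha⟩
      · exact ⟨1, G.one_mem, by simp⟩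
      obtain ⟨g, hg, hgi⟩ := hom_of hh1 {a} {h a} (card_singleton a) (card_singleton (h a))
      refine ⟨g, hg, fun x hx => ?_⟩
      rw [card_le_one.mp hs x hx a ha]
      simpa using hgi
    · have hprev := ih hj (by omega) hh1
      by_contra hnot
      rcases classify (k := j + 1) (by omega) (by omega) hprev hnot (hom_of hh1) (hom_of hh) with
        h | h | h | h <;> omega

end CfsgLib.LW
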