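import Cfsg.Agent.LW.Basic
import Cfsg.Agent.CoprimeAction.Invariant
import Cfsg.Agent.ZStar.Main

/-!
`k`-transitive groups in which every involution fixes at most `k - 2` points.
-/

set_option autoImplicit false
set_option linter.unusedSectionVars false
set_option linter.style.haveILetI false
set_option linter.deprecated false

namespace CfsgLib.LW

open Equiv Finset

variable {α : Type*} [Fintype α] [DecidableEq α] {G : Subgroup (Perm α)} {k : ℕ}

/-- No involution fixes more than `k - 2` points. -/
def InvSmall (G : Subgroup (Perm α)) (k : ℕ) : Prop :=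
  ∀ t ∈ G, t * t = 1 → t ≠ 1 → (fx t).card + 2 ≤ k

theorem InvSmall.noInv (hI : InvSmall G k) {s : Finset α} (hs : k ≤ s.card + 1) : NoInv G s := by
  intro g hg h2
  by_contra h1
  have := hI g hg.1 h2 h1
  have h3 : s.card ≤ (fx g).card := card_le_card fun x hx => mem_fx.mpr (hg.2 x hx)
  omega

theorem InvSmall.fx_eq (hI : InvSmall G k) {F : Finset α} (hF : F.card + 2 = k) {t : Perm α}
    (ht : t ∈ G) (h2 : t * t = 1) (h1 : t ≠ 1) (hfix : ∀ x ∈ F, t x = x) : fx t = F := by
  refine (eq_of_subset_of_card_le (fun x hx => mem_fx.mpr (hfix x hx)) ?_).symm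
  have := hI t ht h2 h1
  omega

theorem exists_invol (hG : MT G k) (hI : InvSmall G k) {F : Finset α}
    (hF : F.card + 2 = k) {x y : α} (hx : x ∉ F) (hy : y ∉ F) (hxy : x ≠ y) :
    ∃ t ∈ G, t * t = 1 ∧ t ≠ 1 ∧ fx t = F ∧ t x = y ∧ t y = x := by
  set D := insert x (insert y F)
  have hD : D.card = k := by
    rw [card_insert_of_notMem (by simp [hxy, hx]), card_insert_of_notMem hy]; omega
  obtain ⟨g, hg, hgx⟩ := hG D (swap x y) hD.le (Equiv.injective _).injOn
  have h2 : ∀ z ∈ D, g (g z) = z := by
    intro z hz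
    have hm : swap x y z ∈ D := by
      rcases eq_or_ne z x with rfl | e
      · simp [D]
      rcases eq_or_ne z y with rfl | e'
      · simp [D]
      rwa [swap_apply_of_ne_of_ne e e']
    rw [hgx z hz, hgx _ hm, swap_apply_self]
  obtain ⟨t, ht, ht2, ht1, htx⟩ := lift_inv (hI.noInv (by omega)) hg h2 (a := x) (by simp [D])
    (by rw [hgx x (by simp [D]), swap_apply_left]; exact hxy.symm)
  refine ⟨t, ht, ht2, ht1, hI.fx_eq hF ht ht2 ht1 fun z hz => ?_, ?_, ?_⟩
  · rw [htx z (by simp [D, hz]), hgx z (by simp [D, hz]),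
      swap_apply_of_ne_of_ne (fun e : z = x => hx (e ▸ hz)) (fun e : z = y => hy (e ▸ hz))]
  · rw [htx x (by simp [D]), hgx x (by simp [D]), swap_apply_left]
  · rw [htx y (by simp [D]), hgx y (by simp [D]), swap_apply_right]

theorem apply_self {t : Perm α} (ht : t * t = 1) (x : α) : t (t x) = x := by
  rw [← Perm.mul_apply, ht, Perm.one_apply]

theorem even_card_compl (hI : InvSmall G k) {F : Finset α} (hF : F.card + 2 = k) {t : Perm α}
    (ht : t ∈ G) (h2 : t * t = 1) (h1 : t ≠ 1) (hfix : ∀ x ∈ F, t x = x) : Even Fᶜ.card := by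
  by_contra hodd
  have hfx := hI.fx_eq hF ht h2 h1 hfix
  obtain ⟨x, hx, hxt⟩ := exists_fixed_of_odd Fᶜ t (Nat.not_even_iff_odd.mp hodd) (fun x hx => by
    rw [mem_compl] at hx ⊢
    exact fun h => hx (by
      have := hfix _ h
      rw [apply_self h2] at this
      rwa [this])) (fun x _ => apply_self h2 x)
  rw [mem_compl, ← hfx, mem_fx] at hx
  exact hx hxt

/-- Some `k`-point stabiliser fixes a further point. -/
theorem exists_fixed_point (hk : 4 ≤ k) (hkn : k < Fintype.card α) (hG : MT G k) (hI : InvSmall G k) :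
    ∃ Γ : Finset α, Γ.card = k ∧ ∃ e ∉ Γ, ∀ g ∈ fixer G Γ, g e = e := by
  classical
  obtain ⟨F, hF, -⟩ := exists_subset_avoid (A := (∅ : Finset α)) (m := k - 2) (by simp; omega)
  have hF2 : F.card + 2 = k := by omega
  obtain ⟨x, hx, y, hy, hxy⟩ := one_lt_card.mp (show 1 < Fᶜ.card by rw [card_compl]; omega)
  rw [mem_compl] at hx hy
  obtain ⟨t, ht, ht2, ht1, htF, htx, hty⟩ := exists_invol hG hI hF2 hx hy hxy
  have htfix : ∀ z ∈ F, t z = z := fun z hz => mem_fx.mp (htF ▸ hz)
  by_cases hs : ∃ s ∈ G, s * s = 1 ∧ s ≠ 1 ∧ fx s = F ∧ t * s = s * t ∧ s ≠ t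
  · obtain ⟨s, hsG, hs2, hs1, hsF, hts, hst⟩ := hs
    have hsfix : ∀ z ∈ F, s z = z := fun z hz => mem_fx.mp (hsF ▸ hz)
    have hti : t⁻¹ = t := inv_eq_of_mul_eq_one_left ht2
    have hts1 : t * s ≠ 1 := fun h => hst (by rw [← inv_eq_of_mul_eq_one_right h, hti])
    have hts2 : t * s * (t * s) = 1 := by
      rw [mul_assoc, ← mul_assoc s t s, ← hts, mul_assoc t s s, hs2, mul_one, ht2]
    have htsF : fx (t * s) = F := hI.fx_eq hF2 (G.mul_mem ht hsG) hts2 hts1 fun z hz => by
      rw [Perm.mul_apply, hsfix z hz, htfix z hz]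
    have hcomm : ∀ z, t (s z) = s (t z) := fun z => by rw [← Perm.mul_apply, hts, Perm.mul_apply]
    have hnf : ∀ {a : Perm α}, fx a = F → ∀ {z}, z ∉ F → a z ≠ z := fun ha z hz h =>
      hz (ha ▸ mem_fx.mpr h)
    have hmv : ∀ {a : Perm α}, (∀ z ∈ F, a z = z) → ∀ {z}, z ∉ F → a z ∉ F := fun {a} ha {z} hz h =>
      hz (by have := a.injective (ha _ h); rwa [this] at h)
    set R : Finset α := {x, t x, s x, t (s x)} with hR
    have d1 : t x ≠ x := hnf htF hx
    have d2 : s x ≠ x := hnf hsF hx
    have d3 : t (s x) ≠ x := hnf htsF hx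
    have d4 : t x ≠ s x := fun h => d3 (by rw [← h, apply_self ht2])
    have d5 : t x ≠ t (s x) := fun h => d2 (t.injective h).symm
    have d6 : s x ≠ t (s x) := fun h => hnf htF (hmv hsfix hx) h.symm
    have hRc : R.card = 4 := by
      rw [hR, card_insert_of_notMem (by simp [d1.symm, d2.symm, d3.symm]),
        card_insert_of_notMem (by simp [d4, d5]), card_insert_of_notMem (by simp [d6]), card_singleton]
    have hRF : Disjoint R F := by
      rw [Finset.disjoint_left]
      intro z hz
      simp only [hR, mem_insert, mem_singleton] at hz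
      rcases hz with rfl | rfl | rfl | rfl
      exacts [hx, hmv htfix hx, hmv hsfix hx, hmv htfix (hmv hsfix hx)]
    obtain ⟨e, he, f, hf, hef⟩ := one_lt_card.mp (show 1 < F.card by omega)
    set F' := (F.erase e).erase f with hF'
    have hF'c : F'.card + 4 = k := by
      rw [hF', card_erase_of_mem (mem_erase.mpr ⟨hef.symm, hf⟩), card_erase_of_mem he]; omega
    set Γ := R ∪ F' with hΓ
    have hΓc : Γ.card = k := by
      rw [hΓ, card_union_of_disjoint (disjoint_of_subset_right
        ((erase_subset _ _).trans (erase_subset _ _)) hRF)]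
      simp only [hF'] at hF'c ⊢
      omega
    have heΓ : e ∉ Γ := by
      rw [hΓ, mem_union, not_or]
      exact ⟨fun h => Finset.disjoint_left.mp hRF h he, by simp [hF']⟩
    refine ⟨Γ, hΓc, e, heΓ, ?_⟩
    let A : Subgroup (Perm α) :=
      { carrier := {a | a = 1 ∨ a = t ∨ a = s ∨ a = t * s}
        one_mem' := Or.inl rfl
        mul_mem' := by
          have e1 : t * (t * s) = s := by rw [← mul_assoc, ht2, one_mul]
          have e2 : s * (t * s) = t := by rw [← mul_assoc, ← hts, mul_assoc, hs2, mul_one]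
          have e3 : t * s * t = s := by rw [hts, mul_assoc, ht2, mul_one]
          have e4 : t * s * s = t := by rw [mul_assoc, hs2, mul_one]
          rintro a b (rfl | rfl | rfl | rfl) (rfl | rfl | rfl | rfl) <;>
            simp [ht2, hs2, ← hts, e1, e2, e3, e4, hts2]
        inv_mem' := by
          rintro a (rfl | rfl | rfl | rfl)
          · exact Or.inl inv_one
          · exact Or.inr (Or.inl hti)
          · exact Or.inr (Or.inr (Or.inl (inv_eq_of_mul_eq_one_left hs2)))
          · exact Or.inr (Or.inr (Or.inr (inv_eq_of_mul_eq_one_left hts2))) }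
    have hA4 : Nat.card A = 4 := by
      show Nat.card ({a | a = 1 ∨ a = t ∨ a = s ∨ a = t * s} : Set (Perm α)) = 4
      rw [show ({a | a = 1 ∨ a = t ∨ a = s ∨ a = t * s} : Set (Perm α)) =
        (({1, t, s, t * s} : Finset (Perm α)) : Set (Perm α)) from by ext; simp,
        Nat.card_eq_card_toFinset, Finset.toFinset_coe]
      rw [card_insert_of_notMem (by simp [ht1.symm, hs1.symm, hts1.symm]),
        card_insert_of_notMem (by
          simp only [mem_insert, mem_singleton, not_or]
          exact ⟨hst.symm, fun h => hs1 (mul_left_cancel (a := t) (by rw [mul_one]; exact h.symm))⟩),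
        card_insert_of_notMem (by
          simp only [mem_singleton]
          exact fun h => ht1 (mul_right_cancel (b := s) (by rw [one_mul]; exact h.symm))), card_singleton]
    have hAsq : ∀ a : A, a * a = 1 := by
      rintro ⟨a, rfl | rfl | rfl | rfl⟩ <;> apply Subtype.ext
      exacts [one_mul 1, ht2, hs2, hts2]
    haveI : IsMulCommutative A := ⟨⟨fun a b => by
      have h := hAsq (a * b)
      calc a * b = a * b * ((b * b) * (a * a)) := by rw [hAsq, hAsq]; simp
        _ = (a * b * b * b * a) * a := by simp only [mul_assoc]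
        _ = b * a := by
          have hinv : (a * b)⁻¹ = a * b := inv_eq_of_mul_eq_one_left h
          have ha' : a⁻¹ = a := inv_eq_of_mul_eq_one_left (hAsq a)
          have hb' : b⁻¹ = b := inv_eq_of_mul_eq_one_left (hAsq b)
          rw [show a * b * b * b * a * a = a * b by simp [mul_assoc, hAsq], ← hinv, mul_inv_rev,
            ha', hb']⟩⟩
    have hAc : ¬ IsCyclic A := by
      intro hc
      classical
      have := IsCyclic.card_pow_eq_one_le (α := A) (n := 2) (by norm_num)
      rw [filter_true_of_mem (fun a _ => by rw [pow_two]; exact hAsq a), card_univ,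
        ← Nat.card_eq_fintype_card, hA4] at this
      omega
    have hAfix : ∀ a ∈ A, a ≠ 1 → fx a = F := by
      rintro a (rfl | rfl | rfl | rfl) h
      exacts [absurd rfl h, htF, hsF, htsF]
    have hmap : ∀ a ∈ A, Γ.image a = Γ := by
      intro a ha
      refine eq_of_subset_of_card_le ?_ (by rw [card_image_of_injective _ (Equiv.injective _)])
      intro w hw
      obtain ⟨z, hz, rfl⟩ := mem_image.mp hw
      rcases mem_union.mp hz with hz | hz'
      · refine mem_union_left _ ?_
        simp only [hR, mem_insert, mem_singleton] at hz ⊢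
        rcases ha with rfl | rfl | rfl | rfl <;> rcases hz with rfl | rfl | rfl | rfl <;>
          simp [apply_self ht2, apply_self hs2, hcomm]
      · refine mem_union_right _ ?_
        have hzF : z ∈ F := mem_of_mem_erase (mem_of_mem_erase hz')
        have e1 := htfix z hzF
        have e2 := hsfix z hzF
        rcases ha with rfl | rfl | rfl | rfl <;> simp only [Perm.mul_apply, Perm.one_apply, e1, e2] <;>
          exact hz'
    have hAG : ∀ a ∈ A, a ∈ G := by
      rintro a (rfl | rfl | rfl | rfl)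
      exacts [G.one_mem, ht, hsG, G.mul_mem ht hsG]
    have hodd : NoInv G Γ := hI.noInv (by omega)
    have hK : fixer G Γ ≤ fixer ⊤ {e} := by
      refine CfsgLib.CoprimeAction.le_of_centralizers_le hAc (fun a ha => ?_) ?_ ?_
      · rw [Subgroup.mem_normalizer_iff]
        exact fun g => (fixer_conj (hAG a ha) (hmap a ha)).symm
      · rw [hA4, show 4 = 2 ^ 2 by norm_num]
        exact Nat.Coprime.pow_left 2 (Nat.coprime_two_left.mpr (odd_card_fixer hodd))
      · intro a ha ha1 g hg
        obtain ⟨hgK, hgC⟩ := Subgroup.mem_inf.mp hg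
        rw [Subgroup.mem_centralizer_singleton_iff] at hgC
        have hF'fix : ∀ z ∈ F', g z = z := fun z hz => hgK.2 z (mem_union_right _ hz)
        have hstep : ∀ z ∈ F, z ∉ F' → g z = e ∨ g z = f := by
          intro z hz hz'
          have h1 : g z ∈ F := by
            rw [← hAfix a ha ha1] at hz ⊢
            exact fx_of_commute hgC.symm hz
          have h2 : g z ∉ F' := fun h => hz' (by
            have := g.injective (hF'fix _ h); rwa [this] at h)
          simp only [hF', mem_erase, h1, and_true, not_and, not_not] at h2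
          rcases eq_or_ne (g z) f with h | h
          · exact Or.inr h
          · exact Or.inl (h2 h)
        refine ⟨trivial, fun z hz => ?_⟩
        rw [mem_singleton] at hz; subst hz
        rcases hstep z he (by simp [hF']) with h | h
        · exact h
        · rcases hstep f hf (by simp [hF']) with h' | h'
          · exact absurd (eq_of_swap (orderOf_odd hodd hgK) h h') hef
          · exact absurd (g.injective (h.trans h'.symm)) hef
    exact fun g hg => (hK hg).2 e (mem_singleton_self e)
  -- `t` is the only involution of its centraliser in the two-point extension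
  push Not at hs
  exfalso
  obtain ⟨c, hc⟩ := card_pos.mp (show 0 < F.card by omega)
  set L := fixer G (F.erase c) with hL
  have htL : t ∈ L := ⟨ht, fun z hz => htfix z (mem_of_mem_erase hz)⟩
  have hiso : Cfsg.IsIsolatedInvolution (⟨t, htL⟩ : L) := by
    refine ⟨?_, fun g hg => Subtype.ext ?_⟩
    · rw [← Subgroup.orderOf_coe]
      exact orderOf_eq_prime (by rw [pow_two]; exact ht2) ht1
    set s := (g : Perm α) * t * (g : Perm α)⁻¹ with hs'
    show s = t
    have hcomm : t * s = s * t := congrArg Subtype.val hg.eq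
    have hsG : s ∈ G := G.mul_mem (G.mul_mem g.2.1 ht) (G.inv_mem g.2.1)
    have hs2 : s * s = 1 := by
      simp only [hs', mul_assoc, inv_mul_cancel_left]
      rw [← mul_assoc t t, ht2, one_mul, mul_inv_cancel]
    have hs1 : s ≠ 1 := fun h => ht1 (conj_eq_one_iff.mp h)
    by_cases hsc : fx s = F
    · exact hs s hsG hs2 hs1 hsc hcomm
    exfalso
    have hcard : (fx s).card = F.card := by
      rw [← htF, ← card_image_of_injective (fx t) (g : Perm α).injective]
      congr 1
      ext z
      simp only [mem_fx, mem_image, hs', Perm.mul_apply]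
      constructor
      · intro h
        exact ⟨(g : Perm α)⁻¹ z, (g : Perm α).injective (by simpa using h), by simp⟩
      · rintro ⟨w, hw, rfl⟩; simp [hw]
    have hsub : F.erase c ⊆ fx s := fun z hz => by
      rw [mem_fx, hs', Perm.mul_apply, Perm.mul_apply]
      have h1 : ((g : Perm α)⁻¹) z = z := ((fixer G (F.erase c)).inv_mem g.2).2 z hz
      rw [h1, htfix z (mem_of_mem_erase hz), g.2.2 z hz]
    obtain ⟨d, hd⟩ := card_eq_one.mp (show (fx s \ F.erase c).card = 1 by
      rw [card_sdiff_of_subset hsub, card_erase_of_mem hc]; omega)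
    have hdm : d ∈ fx s \ F.erase c := by rw [hd]; exact mem_singleton_self d
    have htd : t d ∈ fx s \ F.erase c := by
      rw [mem_sdiff] at hdm ⊢
      refine ⟨fx_of_commute hcomm.symm hdm.1, fun h => hdm.2 ?_⟩
      have := t.injective (htfix _ (mem_of_mem_erase h))
      rwa [this] at h
    rw [hd, mem_singleton] at htd
    have hdF : d ∈ F := htF ▸ mem_fx.mpr htd
    rw [mem_sdiff, mem_erase, not_and] at hdm
    have hdc : d = c := by by_contra h; exact hdm.2 h hdF
    refine hsc (eq_of_subset_of_card_le (t := fx s) ?_ hcard.le).symm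
    intro z hz
    rcases eq_or_ne z c with h | h
    · rw [h, ← hdc]; exact hdm.1
    · exact hsub (mem_erase.mpr ⟨h, hz⟩)
  haveI := Fact.mk Nat.prime_two
  set O := Cfsg.pPrimeCore 2 L with hO
  have hOodd : ∀ o ∈ O, Odd (orderOf (o : Perm α)) := by
    intro o ho
    rw [Subgroup.orderOf_coe, ← Nat.not_even_iff_odd, even_iff_two_dvd]
    intro h
    exact CfsgLib.PCore.not_dvd_card_pPrimeCore 2 L (h.trans (by
      have := Subgroup.orderOf_dvd_natCard O ho; exact this))
  haveI hOn : O.Normal := by
    have := CfsgLib.PCore.pPrimeCore_characteristic 2 L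
    exact Subgroup.normal_of_characteristic _
  have hout : ∀ {o : L}, (o : Perm α) c = c → ∀ z ∈ F, (o : Perm α) z = z := by
    intro o h z hz
    rcases eq_or_ne z c with rfl | hzc
    · exact h
    · exact o.2.2 z (mem_erase.mpr ⟨hzc, hz⟩)
  have hstep1 : ∀ o ∈ O, (o : Perm α) c = c → o = 1 := by
    intro o ho hoc
    by_contra ho1
    obtain ⟨z₀, hz₀⟩ : ∃ z, (o : Perm α) z ≠ z := by
      by_contra h; push Not at h; exact ho1 (Subtype.ext (Equiv.ext h))
    have hz₀F : z₀ ∉ F := fun h => hz₀ (hout hoc z₀ h)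
    have hoz : (o : Perm α) z₀ ∉ F := fun h => hz₀F (by
      have := (o : Perm α).injective (hout hoc _ h); rwa [this] at h)
    let Oc : Subgroup (Perm α) := (O.map L.subtype) ⊓ fixer G F
    have horb : MulAction.orbit Oc z₀ = ↑(Fᶜ) := by
      ext z
      simp only [coe_compl, Set.mem_compl_iff, mem_coe]
      constructor
      · rintro ⟨⟨g, hg⟩, rfl⟩
        have hg2 := (Subgroup.mem_inf.mp hg).2.2
        intro h
        apply hz₀F
        have h3 : g z₀ ∈ F := h
        have := g.injective (hg2 _ h3)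
        rwa [this] at h3
      · intro hz
        rcases eq_or_ne z z₀ with rfl | hzz
        · exact MulAction.mem_orbit_self _
        obtain ⟨g, hg, hgx⟩ := hG (insert ((o : Perm α) z₀) (insert z₀ F))
          (Function.update id ((o : Perm α) z₀) z)
          (by rw [card_insert_of_notMem (by simp [hz₀, hoz]), card_insert_of_notMem hz₀F]; omega)
          (injOn_update (Set.injOn_id _) (by simp [hz₀, hoz]) (by
            intro w hw
            rcases mem_insert.mp hw with rfl | hw
            · exact hzz.symm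
            · exact fun h => hz (h ▸ hw)))
        have hgid : ∀ w ∈ insert z₀ F, g w = w := by
          intro w hw
          rw [hgx w (mem_insert_of_mem hw), Function.update_of_ne]
          · rfl
          · rintro rfl; exact (by simp [hz₀, hoz] : (o : Perm α) z₀ ∉ insert z₀ F) hw
        have hgL : g ∈ L := ⟨hg, fun w hw => hgid w (mem_insert_of_mem (mem_of_mem_erase hw))⟩
        refine ⟨⟨g * o * g⁻¹, Subgroup.mem_inf.mpr ⟨?_, ?_⟩⟩, ?_⟩
        · exact ⟨⟨g, hgL⟩ * o * (⟨g, hgL⟩ : L)⁻¹, hOn.conj_mem o ho _, rfl⟩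
        · refine ⟨G.mul_mem (G.mul_mem hg o.2.1) (G.inv_mem hg), fun w hw => ?_⟩
          have : g⁻¹ w = w := by rw [Perm.inv_eq_iff_eq, hgid w (mem_insert_of_mem hw)]
          rw [Perm.mul_apply, Perm.mul_apply, this, hout hoc w hw, hgid w (mem_insert_of_mem hw)]
        · show g ((o : Perm α) (g⁻¹ z₀)) = z
          have : g⁻¹ z₀ = z₀ := by rw [Perm.inv_eq_iff_eq, hgid z₀ (mem_insert_self _ _)]
          rw [this, hgx _ (mem_insert_self _ _), Function.update_self]
    have h1 : Fᶜ.card ∣ Nat.card Oc := by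
      refine ⟨Nat.card (MulAction.stabilizer Oc z₀), ?_⟩
      rw [← Nat.card_congr (MulAction.orbitProdStabilizerEquivGroup Oc z₀), Nat.card_prod, horb,
        Nat.card_eq_card_toFinset, Finset.toFinset_coe]
    have h2 : Nat.card Oc ∣ Nat.card O := by
      refine (Subgroup.card_dvd_of_le inf_le_left).trans ?_
      rw [Subgroup.card_map_of_injective L.subtype_injective]
    refine CfsgLib.PCore.not_dvd_card_pPrimeCore 2 L ?_
    exact ((even_iff_two_dvd.mp (even_card_compl hI hF2 ht ht2 ht1 htfix)).trans h1).trans h2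
  have hO1 : ∀ o ∈ O, o = 1 := by
    intro o ho
    by_contra ho1
    have hoc : (o : Perm α) c ≠ c := fun h => ho1 (hstep1 o ho h)
    have hy' : (o : Perm α)⁻¹ c ≠ (o : Perm α) c := by
      intro h
      have h2 : (o * o : L) = 1 := hstep1 _ (O.mul_mem ho ho) (by
        show (o : Perm α) ((o : Perm α) c) = c
        rw [← h]; simp)
      have h3 : orderOf (o : Perm α) ∣ 2 := orderOf_dvd_of_pow_eq_one (by
        rw [pow_two]; exact congrArg Subtype.val h2)
      rcases (Nat.dvd_prime Nat.prime_two).mp h3 with h4 | h4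
      · exact ho1 (Subtype.ext (orderOf_eq_one_iff.mp h4))
      · have := hOodd o ho; rw [h4] at this; exact absurd this (by decide)
    have houtc : ∀ {p : L}, (p : Perm α) c ≠ c → (p : Perm α) c ∉ F := by
      intro p hp h
      exact hp ((p : Perm α).injective (p.2.2 _ (mem_erase.mpr ⟨hp, h⟩)))
    set z₁ := (o : Perm α) c with hz₁
    set z₂ := (o : Perm α)⁻¹ c with hz₂
    have hz₁F : z₁ ∉ F := houtc hoc
    have hz₂F : z₂ ∉ F := houtc (p := o⁻¹) (fun h => hoc (by
      have h' : (o : Perm α)⁻¹ c = c := h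
      rw [Perm.inv_eq_iff_eq] at h'; exact h'.symm))
    obtain ⟨z, hz⟩ := card_pos.mp (show 0 < ((insert z₁ (insert z₂ F))ᶜ).card by
      rw [card_compl, card_insert_of_notMem (by simp [hy'.symm, hz₁F]), card_insert_of_notMem hz₂F]; omega)
    simp only [mem_compl, mem_insert, not_or] at hz
    obtain ⟨g, hg, hgx⟩ := hG (insert z₂ (insert z₁ F)) (Function.update id z₂ z)
      (by rw [card_insert_of_notMem (by simp [hy', hz₂F]), card_insert_of_notMem hz₁F]; omega)
      (injOn_update (Set.injOn_id _) (by simp [hy', hz₂F]) (by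
        intro w hw
        rcases mem_insert.mp hw with rfl | hw
        · exact fun h => hz.1 h.symm
        · exact fun h => hz.2.2 (by simpa using h ▸ hw)))
    have hgid : ∀ w ∈ insert z₁ F, g w = w := by
      intro w hw
      rw [hgx w (mem_insert_of_mem hw), Function.update_of_ne]
      · rfl
      · rintro rfl; exact (by simp [hy', hz₂F] : z₂ ∉ insert z₁ F) hw
    have hgL : g ∈ L := ⟨hg, fun w hw => hgid w (mem_insert_of_mem (mem_of_mem_erase hw))⟩
    have hgc : g c = c := hgid c (mem_insert_of_mem hc)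
    have hgic : g⁻¹ c = c := by rw [Perm.inv_eq_iff_eq, hgc]
    have h1 : (o⁻¹ * (⟨g, hgL⟩ * o * (⟨g, hgL⟩ : L)⁻¹) : L) = 1 := by
      refine hstep1 _ (O.mul_mem (O.inv_mem ho) (hOn.conj_mem o ho _)) ?_
      show (o : Perm α)⁻¹ (g ((o : Perm α) (g⁻¹ c))) = c
      rw [hgic, ← hz₁, hgid z₁ (mem_insert_self _ _), hz₁]; simp
    have h2 : g * (o : Perm α) * g⁻¹ = o := by
      have := congrArg Subtype.val h1
      exact (inv_mul_eq_one.mp this).symm
    have h3 : g z₂ = z₂ := by
      apply (o : Perm α).injective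
      have h4 : ∀ w, g ((o : Perm α) w) = (o : Perm α) (g w) := fun w => by
        rw [← Perm.mul_apply, mul_inv_eq_iff_eq_mul.mp h2, Perm.mul_apply]
      rw [← h4, hz₂]
      simpa using hgc
    rw [hgx z₂ (mem_insert_self _ _), Function.update_self] at h3
    exact hz.2.1 h3
  obtain ⟨z, hz⟩ := card_pos.mp (show 0 < Fᶜ.card by rw [card_compl]; omega)
  rw [mem_compl] at hz
  obtain ⟨g, hg, hgx⟩ := hG F (Function.update id c z) (by omega) (by
    rw [← insert_erase hc]
    exact injOn_update (Set.injOn_id _) (notMem_erase c F) (fun w hw h => hz (h ▸ mem_of_mem_erase hw)))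
  have hgL : g ∈ L := ⟨hg, fun w hw => by
    rw [hgx w (mem_of_mem_erase hw), Function.update_of_ne (ne_of_mem_erase hw)]; rfl⟩
  have hc1 := hO1 _ (CfsgLib.ZStar.zstar hiso ⟨g, hgL⟩)
  have hc2 : t * g * t⁻¹ * g⁻¹ = 1 := congrArg Subtype.val hc1
  have hgc : g c = z := by rw [hgx c hc, Function.update_self]
  have : t z = z := by
    rw [mul_inv_eq_one, mul_inv_eq_iff_eq_mul] at hc2
    rw [← hgc, ← Perm.mul_apply, hc2, Perm.mul_apply, htfix c hc]
  exact hz (htF ▸ mem_fx.mpr this)

/-- If the `k`-point stabilisers are trivial then the degree is `k + 2`. -/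
theorem eq_add_two (hk : 4 ≤ k) (hkn : k < Fintype.card α) (hG : MT G k) (hI : InvSmall G k)
    (htriv : ∀ s : Finset α, s.card = k → fixer G s = ⊥) : Fintype.card α = k + 2 := by
  classical
  obtain ⟨F, hF, -⟩ := exists_subset_avoid (A := (∅ : Finset α)) (m := k - 2) (by simp; omega)
  have hF2 : F.card + 2 = k := by omega
  obtain ⟨x, hx, y, hy, hxy⟩ := one_lt_card.mp (show 1 < Fᶜ.card by rw [card_compl]; omega)
  rw [mem_compl] at hx hy
  obtain ⟨t, ht, ht2, ht1, htF, htx, hty⟩ := exists_invol hG hI hF2 hx hy hxy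
  have htfix : ∀ z ∈ F, t z = z := fun z hz => mem_fx.mp (htF ▸ hz)
  have htne : ∀ z ∉ F, t z ≠ z := fun z hz h => hz (htF ▸ mem_fx.mpr h)
  set N := Fᶜ.card with hN
  have hN3 : 3 ≤ N := by rw [hN, card_compl]; omega
  have huniq : ∀ g h : Perm α, g ∈ fixer G F → h ∈ fixer G F → ∀ a b, a ∉ F → b ∉ F → a ≠ b →
      g a = h a → g b = h b → g = h := by
    intro g h hg hh a b ha hb hab h1 h2
    have : h⁻¹ * g ∈ fixer G (insert a (insert b F)) := by
      refine ⟨G.mul_mem (G.inv_mem hh.1) hg.1, fun z hz => ?_⟩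
      rw [Perm.mul_apply, Perm.inv_eq_iff_eq]
      simp only [mem_insert] at hz
      rcases hz with rfl | rfl | hz
      exacts [h1, h2, (hg.2 z hz).trans (hh.2 z hz).symm]
    rw [htriv _ (by rw [card_insert_of_notMem (by simp [hab, ha]), card_insert_of_notMem hb]; omega),
      Subgroup.mem_bot] at this
    exact (inv_mul_eq_one.mp this).symm
  have hmem : ∀ {g : Perm α}, g ∈ fixer G F → ∀ {z}, z ∉ F → g z ∉ F := fun hg z hz h =>
    hz (by have := Equiv.injective _ (hg.2 _ h); rwa [this] at h)
  have hexi : ∀ {a b a' b' : α}, a ∉ F → b ∉ F → a ≠ b → a' ∉ F → b' ∉ F → a' ≠ b' →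
      ∃ g ∈ fixer G F, g a = a' ∧ g b = b' := by
    intro a b a' b' ha hb hab ha' hb' hab'
    have hbn : b ∉ F := hb
    have hi1 : Set.InjOn (Function.update id b b') ↑(insert b F) :=
      injOn_update (Set.injOn_id _) hbn (fun w hw h => hb' (h ▸ hw))
    obtain ⟨g, hg, hgx⟩ := hG (insert a (insert b F)) (Function.update (Function.update id b b') a a')
      (by rw [card_insert_of_notMem (by simp [hab, ha]), card_insert_of_notMem hb]; omega)
      (injOn_update hi1 (by simp [hab, ha]) (by
        intro w hw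
        rcases mem_insert.mp hw with rfl | hw
        · rw [Function.update_self]; exact hab'.symm
        · rw [Function.update_of_ne (fun e : w = b => hbn (e ▸ hw))]; exact fun h => ha' (h ▸ hw)))
    refine ⟨g, ⟨hg, fun w hw => ?_⟩, ?_, ?_⟩
    · rw [hgx w (by simp [hw]), Function.update_of_ne (fun e : w = a => ha (e ▸ hw)),
        Function.update_of_ne (fun e : w = b => hb (e ▸ hw))]
      rfl
    · rw [hgx a (mem_insert_self _ _), Function.update_self]
    · rw [hgx b (by simp), Function.update_of_ne hab.symm, Function.update_self]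
  set H := univ.filter (fun g : Perm α => g ∈ fixer G F) with hH
  set I := H.filter (fun g => g * g = 1 ∧ g ≠ 1) with hI'
  have hIF : ∀ g ∈ I, ∀ z ∉ F, g z ≠ z := by
    intro g hg z hz h
    simp only [hI', hH, mem_filter, mem_univ, true_and] at hg
    have := hI.fx_eq hF2 hg.1.1 hg.2.1 hg.2.2 hg.1.2
    exact hz (this ▸ mem_fx.mpr h)
  have hIc : I.card * N = N * (N - 1) := by
    rw [Nat.mul_sub_one, ← offDiag_card, hN, ← card_product]
    refine card_bij (fun p _ => (p.2, p.1 p.2)) ?_ ?_ ?_
    · rintro ⟨g, z⟩ hp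
      simp only [mem_product, mem_compl] at hp
      simp only [hI', hH, mem_filter, mem_univ, true_and] at hp
      simp only [mem_offDiag, mem_compl]
      exact ⟨hp.2, hmem hp.1.1 hp.2, fun h => hIF g (by simp [hI', hH, hp.1]) z hp.2 h.symm⟩
    · rintro ⟨g, z⟩ hp ⟨g', z'⟩ hp' h
      simp only [Prod.mk.injEq] at h
      obtain ⟨rfl, h⟩ := h
      simp only [hI', hH, mem_product, mem_filter, mem_univ, true_and, mem_compl] at hp hp'
      have hne : z ≠ g z := fun e => hIF g (by simp [hI', hH, hp.1]) z hp.2 e.symm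
      refine Prod.ext ?_ rfl
      exact huniq g g' hp.1.1 hp'.1.1 z (g z) hp.2 (hmem hp.1.1 hp.2) hne h
        (by rw [apply_self hp.1.2.1]; rw [h, apply_self hp'.1.2.1])
    · rintro ⟨a, b⟩ hab
      simp only [mem_offDiag, mem_compl] at hab
      obtain ⟨s, hs, hs2, hs1, hsF, hsa, -⟩ := exists_invol hG hI hF2 hab.1 hab.2.1 hab.2.2
      refine ⟨(s, a), ?_, by simp [hsa]⟩
      simp only [hI', hH, mem_product, mem_filter, mem_univ, true_and, mem_compl]
      exact ⟨⟨⟨hs, fun w hw => mem_fx.mp (hsF ▸ hw)⟩, hs2, hs1⟩, hab.1⟩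
  have hI1 : I.card = N - 1 := Nat.eq_of_mul_eq_mul_right (m := N) (by omega) (by rw [hIc, mul_comm])
  have hHc : H.card = N * (N - 1) := by
    rw [Nat.mul_sub_one, ← offDiag_card]
    refine card_bij (fun g _ => (g x, g y)) ?_ ?_ ?_
    · intro g hg
      simp only [hH, mem_filter, mem_univ, true_and] at hg
      simp only [mem_offDiag, mem_compl]
      exact ⟨hmem hg hx, hmem hg hy, fun h => hxy (g.injective h)⟩
    · intro g hg g' hg' h
      simp only [hH, mem_filter, mem_univ, true_and, Prod.mk.injEq] at hg hg' h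
      exact huniq g g' hg hg' x y hx hy hxy h.1 h.2
    · rintro ⟨a, b⟩ hab
      simp only [mem_offDiag, mem_compl] at hab
      obtain ⟨g, hg, h1, h2⟩ := hexi hx hy hxy hab.1 hab.2.1 hab.2.2
      exact ⟨g, by simp [hH, hg], by simp [h1, h2]⟩
  set S : α → Finset (Perm α) := fun z => (H.filter (fun g => g z = z)).erase 1 with hS
  have hSc : ∀ z ∈ Fᶜ, (S z).card = N - 2 := by
    intro z hz
    rw [mem_compl] at hz
    obtain ⟨w, hw⟩ := card_pos.mp (show 0 < ((insert z F)ᶜ).card by
      rw [card_compl, card_insert_of_notMem hz]; omega)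
    simp only [mem_compl, mem_insert, not_or] at hw
    rw [hS, card_erase_of_mem (by simp [hH, (fixer G F).one_mem])]
    have : (H.filter (fun g => g z = z)).card = (Fᶜ.erase z).card := by
      refine card_bij (fun g _ => g w) ?_ ?_ ?_
      · intro g hg
        simp only [hH, mem_filter, mem_univ, true_and] at hg
        simp only [mem_erase, mem_compl]
        exact ⟨fun h => hw.1 (g.injective (h.trans hg.2.symm)), hmem hg.1 hw.2⟩
      · intro g hg g' hg' h
        simp only [hH, mem_filter, mem_univ, true_and] at hg hg'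
        exact huniq g g' hg.1 hg'.1 z w hz hw.2 (Ne.symm hw.1) (hg.2.trans hg'.2.symm) h
      · intro b hb
        simp only [mem_erase, mem_compl] at hb
        obtain ⟨g, hg, h1, h2⟩ := hexi hz hw.2 (Ne.symm hw.1) hz hb.2 (Ne.symm hb.1)
        exact ⟨g, by simp [hH, hg, h1], h2⟩
    rw [this, card_erase_of_mem (mem_compl.mpr hz)]
    omega
  set U := Fᶜ.biUnion S with hU
  have hUc : U.card = N * (N - 2) := by
    rw [hU, card_biUnion, sum_congr rfl hSc, sum_const, smul_eq_mul]
    intro a ha b hb hab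
    simp only [Function.onFun, Finset.disjoint_left, hS, mem_erase, hH, mem_filter, mem_univ, true_and]
    rintro g ⟨hg1, hg, hga⟩ ⟨-, -, hgb⟩
    simp only [coe_compl, Set.mem_compl_iff, mem_coe] at ha hb
    exact hg1 (huniq g 1 hg (fixer G F).one_mem a b ha hb hab (by simpa using hga) (by simpa using hgb))
  set D := (H.erase 1) \ U with hD
  have hUsub : U ⊆ H.erase 1 := by
    intro g hg
    simp only [hU, hS, mem_biUnion, mem_erase, mem_filter] at hg
    obtain ⟨z, -, h1, h2, -⟩ := hg
    exact mem_erase.mpr ⟨h1, h2⟩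
  have hDI : D = I := by
    refine (eq_of_subset_of_card_le ?_ ?_).symm
    · intro g hg
      rw [hD, mem_sdiff, mem_erase]
      have hg' := hg
      simp only [hI', mem_filter] at hg'
      refine ⟨⟨hg'.2.2, hg'.1⟩, fun h => ?_⟩
      simp only [hU, hS, mem_biUnion, mem_erase, mem_filter, mem_compl] at h
      obtain ⟨z, hz, -, -, hgz⟩ := h
      exact hIF g hg z hz hgz
    · rw [hD, card_sdiff_of_subset hUsub, card_erase_of_mem (by simp [hH, (fixer G F).one_mem]),
        hHc, hUc, hI1]
      obtain ⟨r, hr⟩ : ∃ r, N = r + 2 := ⟨N - 2, by omega⟩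
      rw [hr, show r + 2 - 1 = r + 1 by omega, show r + 2 - 2 = r by omega]
      ring_nf; omega
  set C := H.filter (fun g => g * t = t * g) with hC
  have hCfree : ∀ g ∈ C, ∀ z ∉ F, g z = z → g = 1 := by
    intro g hg z hz h
    simp only [hC, hH, mem_filter, mem_univ, true_and] at hg
    refine huniq g 1 hg.1 (fixer G F).one_mem z (t z) hz ?_ (htne z hz).symm (by simpa using h) ?_
    · exact hmem ⟨ht, htfix⟩ hz
    · rw [← Perm.mul_apply, hg.2, Perm.mul_apply, h, Perm.one_apply]
  have hCsq : ∀ g ∈ C, g * g = 1 := by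
    intro g hg
    by_cases h1 : g = 1
    · simp [h1]
    have : g ∈ D := by
      rw [hD, mem_sdiff, mem_erase]
      refine ⟨⟨h1, (mem_filter.mp hg).1⟩, fun h => ?_⟩
      simp only [hU, hS, mem_biUnion, mem_erase, mem_filter, mem_compl] at h
      obtain ⟨z, hz, -, -, hgz⟩ := h
      exact h1 (hCfree g hg z hz hgz)
    rw [hDI] at this
    exact (mem_filter.mp this).2.1
  have hCmul : ∀ g ∈ C, ∀ h ∈ C, g * h ∈ C ∧ g * h = h * g := by
    intro g hg h hh
    have hg' := hCsq g hg; have hh' := hCsq h hh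
    simp only [hC, hH, mem_filter, mem_univ, true_and] at hg hh
    have hm : g * h ∈ C := by
      simp only [hC, hH, mem_filter, mem_univ, true_and]
      exact ⟨(fixer G F).mul_mem hg.1 hh.1, by rw [mul_assoc, hh.2, ← mul_assoc, hg.2, mul_assoc]⟩
    refine ⟨hm, ?_⟩
    have := inv_eq_of_mul_eq_one_left (hCsq _ hm)
    rw [mul_inv_rev, inv_eq_of_mul_eq_one_left hg', inv_eq_of_mul_eq_one_left hh'] at this
    exact this.symm
  have hCN : N ≤ C.card := by
    have h := card_le_mul_card_image_of_maps_to (f := fun g : Perm α => g * t * g⁻¹) (s := H)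
      (t := I) (fun g hg => ?_) C.card (fun s hs => ?_)
    · rw [hHc, hI1] at h
      exact Nat.le_of_mul_le_mul_right h (by omega)
    · simp only [hH, mem_filter, mem_univ, true_and] at hg
      simp only [hI', hH, mem_filter, mem_univ, true_and]
      refine ⟨(fixer G F).mul_mem ((fixer G F).mul_mem hg ⟨ht, htfix⟩) ((fixer G F).inv_mem hg), ?_,
        fun h => ht1 (conj_eq_one_iff.mp h)⟩
      simp only [mul_assoc, inv_mul_cancel_left]
      rw [← mul_assoc t t, ht2, one_mul, mul_inv_cancel]
    · rcases (H.filter fun g => g * t * g⁻¹ = s).eq_empty_or_nonempty with he | ⟨g₀, hg₀⟩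
      · rw [he]; simp
      refine card_le_card_of_injOn (fun g => g₀⁻¹ * g) (fun g hg => ?_) (fun a _ b _ h => mul_left_cancel h)
      simp only [coe_filter, Set.mem_setOf_eq, hH, mem_filter, mem_univ, true_and] at hg hg₀
      simp only [mem_coe, hC, hH, mem_filter, mem_univ, true_and]
      refine ⟨(fixer G F).mul_mem ((fixer G F).inv_mem hg₀.1) hg.1, ?_⟩
      have e : g * t * g⁻¹ = g₀ * t * g₀⁻¹ := hg.2.trans hg₀.2.symm
      calc g₀⁻¹ * g * t = g₀⁻¹ * (g * t * g⁻¹) * g := by simp [mul_assoc]
        _ = t * (g₀⁻¹ * g) := by rw [e]; simp [mul_assoc]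
  -- a commuting involution
  obtain ⟨c, hc, d, hd, hcd⟩ := one_lt_card.mp (show 1 < F.card by omega)
  set D₀ := insert x (insert y F) with hD₀
  have hD₀c : D₀.card = k := by
    rw [hD₀, card_insert_of_notMem (by simp [hxy, hx]), card_insert_of_notMem hy]; omega
  have hcD : c ∈ D₀ := by simp [hD₀, hc]
  have hdD : d ∈ D₀ := by simp [hD₀, hd]
  have hswm : ∀ z ∈ D₀, swap c d z ∈ D₀ := by
    intro z hz
    rcases eq_or_ne z c with rfl | e
    · rwa [swap_apply_left]
    rcases eq_or_ne z d with rfl | e'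
    · rwa [swap_apply_right]
    rwa [swap_apply_of_ne_of_ne e e']
  have hnoD : NoInv G D₀ := hI.noInv (by omega)
  obtain ⟨g₁, hg₁, hg₁x⟩ := hG D₀ (swap c d) hD₀c.le (Equiv.injective _).injOn
  obtain ⟨u₀, hu₀, hu₀2, -, hu₀x⟩ := lift_inv hnoD hg₁ (fun z hz => by
    rw [hg₁x z hz, hg₁x _ (hswm z hz), swap_apply_self]) hcD (by
    rw [hg₁x c hcD, swap_apply_left]; exact hcd.symm)
  have hxc : x ≠ c := fun e => hx (e ▸ hc)
  have hxd : x ≠ d := fun e => hx (e ▸ hd)
  have hyc : y ≠ c := fun e => hy (e ▸ hc)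
  have hyd : y ≠ d := fun e => hy (e ▸ hd)
  have htm : ∀ z ∈ D₀, t z ∈ D₀ := by
    intro z hz
    simp only [hD₀, mem_insert] at hz ⊢
    rcases hz with rfl | rfl | hz
    · exact Or.inr (Or.inl htx)
    · exact Or.inl hty
    · exact Or.inr (Or.inr (by rw [htfix z hz]; exact hz))
  have hu₀s : ∀ z ∈ D₀, u₀ z = swap c d z := fun z hz => (hu₀x z hz).trans (hg₁x z hz)
  obtain ⟨u, hu, hu2, hut, hux⟩ := lift_commute hnoD ht hu₀ ht2 hu₀2 (fun z hz => by
    rw [hu₀s z hz, hu₀s _ (htm z hz)]
    simp only [hD₀, mem_insert] at hz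
    rcases hz with rfl | rfl | hz
    · rw [swap_apply_of_ne_of_ne hxc hxd, htx, swap_apply_of_ne_of_ne hyc hyd]
    · rw [swap_apply_of_ne_of_ne hyc hyd, hty, swap_apply_of_ne_of_ne hxc hxd]
    · rw [htfix z hz]
      refine htfix _ ?_
      rcases eq_or_ne z c with rfl | e
      · rwa [swap_apply_left]
      rcases eq_or_ne z d with rfl | e'
      · rwa [swap_apply_right]
      rwa [swap_apply_of_ne_of_ne e e'])
  have hus : ∀ z ∈ D₀, u z = swap c d z := fun z hz => (hux z hz).trans (hu₀s z hz)
  have hufix : ∀ z ∈ D₀, z ≠ c → z ≠ d → u z = z := fun z hz h1 h2 => by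
    rw [hus z hz, swap_apply_of_ne_of_ne h1 h2]
  have hu1 : u ≠ 1 := fun h => hcd (by
    have := hus c hcD; rw [h, Perm.one_apply, swap_apply_left] at this; exact this)
  have hufx : fx u = (D₀.erase c).erase d := by
    refine (eq_of_subset_of_card_le (fun z hz => ?_) ?_).symm
    · simp only [mem_erase] at hz; exact mem_fx.mpr (hufix z hz.2.2 hz.2.1 hz.1)
    · rw [card_erase_of_mem (mem_erase.mpr ⟨hcd.symm, hdD⟩), card_erase_of_mem hcD]
      have := hI u hu hu2 hu1
      omega
  have huF : ∀ z ∈ F, u z ∈ F := fun z hz => htF ▸ fx_of_commute hut (htF ▸ hz)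
  have hφ : ∀ g ∈ C, u * g * u ∈ C := by
    intro g hg
    simp only [hC, hH, mem_filter, mem_univ, true_and] at hg ⊢
    refine ⟨⟨G.mul_mem (G.mul_mem hu hg.1.1) hu, fun z hz => ?_⟩, ?_⟩
    · rw [Perm.mul_apply, Perm.mul_apply, hg.1.2 _ (huF z hz), apply_self hu2]
    · rw [mul_assoc, ← hut, mul_assoc, ← mul_assoc g, hg.2, ← mul_assoc, ← mul_assoc, hut.symm]
      simp only [mul_assoc]
  set Cu := C.filter (fun g => u * g * u = g) with hCu
  have hCu2 : Cu.card ≤ 2 := by
    refine (card_le_card_of_injOn (fun g => g x) (t := {x, y}) ?_ ?_).trans card_le_two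
    · intro g hg
      simp only [coe_filter, Set.mem_setOf_eq, hCu] at hg
      have hgF : g ∈ fixer G F := by
        have := hg.1; simp only [hC, hH, mem_filter, mem_univ, true_and] at this; exact this.1
      have hxu : u x = x := hufix x (by simp [hD₀]) hxc hxd
      have h1 : g x ∈ fx u := by
        rw [mem_fx]
        have := congrArg (fun q : Perm α => q x) hg.2
        simp only [Perm.mul_apply, hxu] at this
        exact this
      rw [hufx] at h1
      simp only [hD₀, mem_erase, mem_insert] at h1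
      rcases h1.2.2 with h | h | h
      · simp [h]
      · simp [h]
      · exact absurd h (hmem hgF hx)
    · intro a ha b hb h
      simp only [coe_filter, Set.mem_setOf_eq, hCu] at ha hb
      have hab := hCmul a ha.1 b hb.1
      have h1 : a * b = 1 := hCfree _ hab.1 x hx (by
        rw [hab.2, Perm.mul_apply]
        show b (a x) = x
        rw [show a x = b x from h, apply_self (hCsq b hb.1)])
      rw [← inv_eq_of_mul_eq_one_right h1, inv_eq_of_mul_eq_one_left (hCsq a ha.1)]
  have hC4 : C.card ≤ 4 := by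
    have h := card_le_mul_card_image_of_maps_to (f := fun g : Perm α => g * (u * g * u)) (s := C)
      (t := Cu) (fun g hg => ?_) 2 (fun s hs => ?_)
    · omega
    · simp only [hCu, mem_filter]
      refine ⟨(hCmul _ hg _ (hφ g hg)).1, ?_⟩
      calc u * (g * (u * g * u)) * u = (u * g * u) * (g * (u * u)) := by simp only [mul_assoc]
        _ = g * (u * g * u) := by rw [hu2, mul_one, (hCmul _ hg _ (hφ g hg)).2]
    · rcases (C.filter fun g => g * (u * g * u) = s).eq_empty_or_nonempty with he | ⟨g₀, hg₀⟩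
      · rw [he]; simp
      refine (card_le_card_of_injOn (fun g => g₀ * g) (fun g hg => ?_)
        (fun a _ b _ h => mul_left_cancel h)).trans hCu2
      simp only [coe_filter, Set.mem_setOf_eq, mem_filter] at hg hg₀
      simp only [mem_coe, hCu, mem_filter]
      refine ⟨(hCmul _ hg₀.1 _ hg.1).1, ?_⟩
      have e : g * (u * g * u) = g₀ * (u * g₀ * u) := hg.2.trans hg₀.2.symm
      calc u * (g₀ * g) * u = (u * g₀ * u) * (u * g * u) := by
            simp only [mul_assoc]; rw [← mul_assoc u u, hu2, one_mul]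
        _ = g₀ * (g₀ * (u * g₀ * u)) * (u * g * u) := by rw [← mul_assoc g₀ g₀, hCsq _ hg₀.1, one_mul]
        _ = g₀ * g := by
            rw [← e, mul_assoc, mul_assoc g, hCsq _ (hφ g hg.1), mul_one]
  have heven := even_card_compl hI hF2 ht ht2 ht1 htfix
  rw [← hN] at heven
  obtain ⟨r, hr⟩ := heven
  have hNn : N = Fintype.card α - F.card := by rw [hN, card_compl]
  omega

end CfsgLib.LW
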